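import Cfsg.Agent.Lib.TR.Defs
import Cfsg.Agent.Lib.H5.OrderP2

/-! # Values of irreducible characters on the section of a Sylow subgroup of prime order -/

set_option autoImplicit false
set_option linter.unusedSectionVars false

namespace Cfsg.Agent.TR

open Subgroup Cfsg.Agent.H6 Cfsg.Agent.FT
open scoped commutatorElement ComplexConjugate Classical

section Abs

open Cfsg.Agent.H3 Cfsg.Agent.H5

variable {p : ℕ} [Fact p.Prime] {G : Type*} [Group G] [Fintype G] {M : Ideal AlgInt} [PMod p M]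
  {P : Subgroup G} [Fintype P]

theorem sum_erase_irr (h : FreeAb p P) {l : IrrCharacter P} (hl : l ≠ trivChar P) :
    ∑ u ∈ Finset.univ.erase (1 : P), (l : P → ℂ) u = -1 := by
  have h1 := classInner_irr l (trivChar P)
  rw [if_neg hl, classInner] at h1
  simp only [trivChar_apply, map_one, mul_one, mul_eq_zero, inv_eq_zero,
    card_ne_zero_complex, false_or] at h1
  rw [← Finset.add_sum_erase _ _ (Finset.mem_univ 1), h.irr_one] at h1
  linear_combination h1

theorem principal_values (hP : Nat.card P = p) (h : FreeAb p P) {χ : IrrCharacter G}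
    (hχ : χ ∈ principalBlock M G) : (∀ u : P, u ≠ 1 → (χ : G → ℂ) u = 1) ∨
      ∑ u ∈ Finset.univ.erase (1 : P), (χ : G → ℂ) u = 1 - p ∨
      (2 * Nat.card (autE P) + 1 ≤ p ∧
        (∑ u ∈ Finset.univ.erase (1 : P), (χ : G → ℂ) u = Nat.card (autE P) ∨
        ∑ u ∈ Finset.univ.erase (1 : P), (χ : G → ℂ) u = -Nat.card (autE P))) := by
  have hp1 : 1 < Nat.card P := hP ▸ (Fact.out : p.Prime).one_lt
  have : Nontrivial P := Finite.one_lt_card_iff_nontrivial.1 hp1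
  obtain ⟨u, hu⟩ := exists_ne (1 : P)
  obtain ⟨l₀, hl₀⟩ : ∃ l, l ≠ trivChar P := by
    by_contra h'
    push Not at h'
    have h1 := h.sum_irr_erase 1
    rw [Finset.sum_eq_zero fun l hl => by simp [h' l] at hl, if_pos rfl,
      eq_comm, sub_eq_zero] at h1
    exact hp1.ne' (by exact_mod_cast h1)
  obtain ⟨ε, a, X, μ, d, hε, hX, hXμ, hμ, hμ', hd, hsum⟩ := h.exc (M := M) hl₀
  have hge := card_principal_ge (M := M) hP h hX
  set e := Nat.card (autE P) with he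
  rw [← H5.card_fs] at hge
  have hce : ((Finset.univ.erase (1 : P)).card : ℂ) = p - 1 := by
    rw [Finset.card_erase_of_mem (Finset.mem_univ _), Finset.card_univ, ← Nat.card_eq_fintype_card,
      Nat.cast_sub hp1.le, hP, Nat.cast_one]
  have hne : ∀ χ ∈ principalBlock M G, ∀ c : ℤ,
      (∀ l, l ≠ trivChar P → classInner (dl M P l) χ = c) → c ≠ 0 := fun χ hχ c hc h0 =>
    apply_ne_zero_of_mem_principal hχ (h.not_dvd_index u.2) (by
      rw [(h.irr_apply_of_const hχ hc).1 u hu, h0, Int.cast_zero])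
  have hconst : ∀ c : ℤ, (∀ l, l ≠ trivChar P → classInner (dl M P l) χ = c) → c = 1 ∨ c = -1 →
      (∀ u : P, u ≠ 1 → (χ : G → ℂ) u = 1) ∨
      ∑ u ∈ Finset.univ.erase (1 : P), (χ : G → ℂ) u = 1 - p := fun c hc h1 => by
    have h2 := (h.irr_apply_of_const hχ hc).1
    rcases h1 with rfl | rfl
    · exact Or.inl fun u hu => (h2 u hu).trans Int.cast_one
    · right
      rw [Finset.sum_congr rfl fun u hu => h2 u (Finset.mem_erase.1 hu).1, Finset.sum_const,
        nsmul_eq_mul, hce]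
      push_cast; ring
  have hd0 : ∀ χ, χ ∉ X → χ ∉ principalBlock M G → d χ = 0 := fun χ h1 h2 => by
    have := hd χ h1 l₀ hl₀
    rw [classInner_dl_of_notMem _ h2] at this
    exact_mod_cast this.symm
  have hsd : ∑ χ ∈ Xᶜ, d χ ^ 2 = ∑ χ ∈ H5.fs (principalBlock M G) \ X, d χ ^ 2 := by
    symm
    refine Finset.sum_subset (fun χ hχ => Finset.mem_compl.2 (Finset.mem_sdiff.1 hχ).2)
      fun χ h1 h2 => ?_
    rw [hd0 χ (Finset.mem_compl.1 h1) fun h3 => h2 (Finset.mem_sdiff.2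
      ⟨H5.mem_fs.2 h3, Finset.mem_compl.1 h1⟩)]
    rfl
  have hd1 : ∀ χ ∈ H5.fs (principalBlock M G) \ X, d χ ≠ 0 := fun χ hχ =>
    hne χ (H5.mem_fs.1 (Finset.mem_sdiff.1 hχ).1) _ (hd χ (Finset.mem_sdiff.1 hχ).2)
  have hle := card_le_sum_sq hd1
  have hsplit := Finset.card_sdiff_add_card_inter (H5.fs (principalBlock M G)) X
  have hint : (H5.fs (principalBlock M G) ∩ X).card ≤ X.card :=
    Finset.card_le_card Finset.inter_subset_right
  rw [hsd] at hsum
  have hfin : χ ∉ X → ∑ χ ∈ H5.fs (principalBlock M G) \ X, d χ ^ 2 ≤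
      (H5.fs (principalBlock M G) \ X).card → (∀ u : P, u ≠ 1 → (χ : G → ℂ) u = 1) ∨
      ∑ u ∈ Finset.univ.erase (1 : P), (χ : G → ℂ) u = 1 - p := fun hχX h1 =>
    hconst _ (hd χ hχX) (eq_one_of_sum_sq hd1 h1 χ (Finset.mem_sdiff.2 ⟨H5.mem_fs.2 hχ, hχX⟩))
  have hX0 : 0 < X.card := Finset.card_pos.2 ⟨_, (hXμ _).2 ⟨l₀, hl₀, rfl⟩⟩
  rw [← or_assoc]
  rcases (Nat.succ_le_of_lt hX0).eq_or_lt with ht | ht
  · left
    obtain ⟨χ₀, hχ₀⟩ := Finset.card_eq_one.1 ht.symm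
    have hμ0 : ∀ l, l ≠ trivChar P → μ l = χ₀ := fun l hl =>
      Finset.mem_singleton.1 (hχ₀ ▸ (hXμ _).2 ⟨l, hl, rfl⟩)
    have h1 : ∀ l, l ≠ trivChar P → classInner (dl M P l) χ₀ = ((a + ε : ℤ) : ℂ) := fun l hl => by
      rw [← hμ0 l hl, hμ' l l hl hl, if_pos rfl]
    have h2 : X.card * a ^ 2 + 2 * ε * a = (a + ε) ^ 2 - 1 := by
      rw [← ht]; rcases hε with rfl | rfl <;> push_cast <;> ring
    by_cases hχ0 : χ₀ ∈ principalBlock M G
    · have h5 := one_le_sq_of_ne (hne χ₀ hχ0 _ h1)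
      by_cases hχX : χ ∈ X
      · rw [hχ₀, Finset.mem_singleton] at hχX
        subst hχX
        exact hconst _ h1 (sq_eq_one_iff.1 (show (a + ε) ^ 2 = 1 by omega))
      · exact hfin hχX (by omega)
    · have h3 : (H5.fs (principalBlock M G) ∩ X).card = 0 := by
        rw [Finset.card_eq_zero, hχ₀, Finset.inter_singleton_of_notMem (mt H5.mem_fs.1 hχ0)]
      have h5 := sq_nonneg (a + ε)
      exact hfin (fun hχX => hχ0 (Finset.mem_singleton.1 (hχ₀ ▸ hχX) ▸ hχ)) (by omega)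
  · have ht' : (2 : ℤ) ≤ X.card := by exact_mod_cast ht
    have h1 : 0 ≤ a * (a + ε) := by
      rcases lt_trichotomy a 0 with h | h | h
      · exact mul_nonneg_of_nonpos_of_nonpos h.le (by omega)
      · simp [h]
      · exact mul_nonneg h.le (by omega)
    have h2 : 0 ≤ (X.card - 2) * a ^ 2 := mul_nonneg (by omega) (sq_nonneg _)
    have h3 : X.card * a ^ 2 + 2 * ε * a = (X.card - 2) * a ^ 2 + 2 * (a * (a + ε)) := by ring
    by_cases hχX : χ ∈ X
    swap
    · exact Or.inl (hfin hχX (by omega))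
    obtain ⟨l, hl, rfl⟩ := (hXμ _).1 hχX
    have hv := (h.irr_apply_of_exc hχ (a := a) (ε := ε) hl fun l' hl' => by
      rw [hμ' l' l hl' hl]; split_ifs <;> simp).1
    have hs : ∑ u ∈ Finset.univ.erase (1 : P), (μ l : G → ℂ) u = (p - 1) * a + ε * e := by
      rw [Finset.sum_congr rfl fun u hu => hv u (Finset.mem_erase.1 hu).1, Finset.sum_sub_distrib,
        Finset.sum_const, nsmul_eq_mul, hce, ← Finset.mul_sum, Finset.sum_comm,
        Finset.sum_congr rfl (f := fun σ : autE P => ∑ u ∈ Finset.univ.erase (1 : P),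
          (l : P → ℂ) (σ.1 u)) fun σ _ => sum_erase_irr h (actIrr_ne_triv σ hl),
        Finset.sum_const,
        Finset.card_univ, ← Nat.card_eq_fintype_card]
      simp [he]
    have h5 : a * (a + ε) = 0 := by omega
    have h6 : (X.card - 2) * a ^ 2 = 0 := by omega
    refine Or.inr ⟨by rw [← hP, ← hX]; nlinarith, ?_⟩
    rw [hs]
    by_cases ha : a = 0
    · rcases hε with rfl | rfl <;> simp [ha]
    have h7 : X.card = 2 := by
      have := (mul_eq_zero.1 h6).resolve_right (pow_ne_zero 2 ha)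
      omega
    have h8 : a = -ε := by
      have := (mul_eq_zero.1 h5).resolve_left ha
      omega
    have hpe : (p : ℂ) = 2 * e + 1 := by rw [← hP, ← hX, h7]; push_cast; ring
    rw [hpe, h8]
    rcases hε with rfl | rfl
    · right; push_cast; ring
    · left; push_cast; ring

theorem sum_eq_zero_of_notMem (h : FreeAb p P) {ψ : IrrCharacter G}
    (hψ : ψ ∉ principalBlock M G) {v : G} (hv : v ∈ P) (hv1 : v ≠ 1) :
    ∑ g ∈ fs {g | pPart p g = v}, (ψ : G → ℂ) g = 0 := by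
  rw [show fs {g | pPart p g = v} = Finset.univ.filter (fun g => pPart p g = v) by ext; simp]
  have h1 : ∑ g : G, (if IsConj v (pPart p g) then (Nat.card P : ℂ) else 0) *
      conj ((ψ : G → ℂ) g) = 0 := by
    simp only [← h.sum_principal (M := M) hv hv1, Finset.sum_mul]
    rw [Finset.sum_comm]
    refine Finset.sum_eq_zero fun χ hχ => ?_
    have h2 := classInner_irr χ ψ
    rw [if_neg (fun e : χ = ψ => hψ (e ▸ H5.mem_fs.1 hχ)), classInner, mul_eq_zero,
      inv_eq_zero] at h2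
    simp only [mul_right_comm _ (conj ((χ : G → ℂ) v)), ← Finset.sum_mul]
    rw [h2.resolve_left (card_ne_zero_complex _), zero_mul]
  have h2 : ∑ g ∈ Finset.univ.filter (fun g => IsConj v (pPart p g)), (ψ : G → ℂ) g = 0 := by
    simp only [ite_mul, zero_mul, ← Finset.sum_filter, ← Finset.mul_sum, ← map_sum, mul_eq_zero,
      card_ne_zero_complex, false_or, map_eq_zero] at h1
    exact h1
  rw [← Finset.sum_fiberwise_of_maps_to (t := Finset.univ.filter (IsConj v ·)) (g := pPart p)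
    (fun g hg => by simpa using hg), Finset.sum_congr rfl (g := fun _ =>
      ∑ g ∈ Finset.univ.filter (fun g => pPart p g = v), (ψ : G → ℂ) g) fun w hw => ?_,
    Finset.sum_const, nsmul_eq_mul, mul_eq_zero] at h2
  · refine h2.resolve_left (Nat.cast_ne_zero.2 (Finset.card_pos.2 ⟨v, Finset.mem_filter.2 ⟨Finset.mem_univ _, IsConj.refl v⟩⟩).ne')
  · obtain ⟨c, rfl⟩ := isConj_iff.1 (Finset.mem_filter.1 hw).2
    refine (Finset.sum_equiv (MulAut.conj c).toEquiv (fun g => ?_) fun g _ =>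
      (irr_conj ψ g c).symm).symm
    simp only [Finset.mem_filter, Finset.mem_univ, true_and, MulEquiv.toEquiv_eq_coe,
      EquivLike.coe_coe, MulAut.conj_apply, pPart_conj, mul_left_inj, mul_right_inj]
    exact ⟨fun e => ⟨e ▸ isConj_iff.2 ⟨c, rfl⟩, e⟩, fun e => e.2⟩

end Abs

variable {X : Type*} [Group X] [Finite X] {p n r s : ℕ} {V G A D K L M N U Y : Subgroup X}
  {χ ψ ω l : X → ℂ} {g v x y z : X}

theorem syl_of_card (hr : r.Prime) (hc : Nat.card Y = r) (hY : Y ≤ K)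
    (hs : ¬ r ^ 2 ∣ Nat.card K) : Syl r Y K :=
  ⟨hY, .of_card (n := 1) (by rw [hc, pow_one]), fun h => hs (by
    rw [← relIndex_mul_card' hY, hc, sq]; exact Nat.mul_dvd_mul_right h r)⟩

theorem b0 (hr : r.Prime) (hr2 : r ≠ 2) (hc : Nat.card Y = r) (hY : Y ≤ K)
    (hs : ¬ r ^ 2 ∣ Nat.card K) (hD : DP Y D (K ⊓ 𝒞(Y))) (hψ : ψ ∈ Irr K) :
    (∀ u ∈ Y, u ≠ 1 → ∑ d ∈ fs (D : Set X), ψ (u * d) = 0) ∨
    ((∀ u ∈ Y, u ≠ 1 → ∀ d ∈ D, ψ (u * d) = ψ u) ∧ ((∀ u ∈ Y, u ≠ 1 → ψ u = 1) ∨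
      ∑ u ∈ fs (nt Y), ψ u = 1 - r ∨ ∃ t : ℕ, t ∣ Nat.card K ∧ 2 * t + 1 ≤ r ∧
        (∑ u ∈ fs (nt Y), ψ u = t ∨ ∑ u ∈ fs (nt Y), ψ u = -t))) := by
  have := Fact.mk hr
  have := Fintype.ofFinite K
  obtain ⟨M, hM, hpM⟩ := H4.exists_maximal_algInt hr
  have : H5.PMod r M := ⟨⟨hr, hM, hpM⟩⟩
  have hS := syl_of_card hr hc hY hs
  have hP : Nat.card (Y.subgroupOf K) = r :=
    (Nat.card_congr (subgroupOfEquivOfLe hY).toEquiv).trans hc
  have hF : H3.FreeAb r (Y.subgroupOf K) := H5.freeAb_of_card hS.toSylow hP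
  have := Fintype.ofFinite (Y.subgroupOf K)
  let χ : IrrCharacter K := ⟨_, (mem_Irr.1 hψ).2⟩
  have hDr : ¬ r ∣ Nat.card D := fun h => hs ((by
    rw [← hD.card_mul, hc, sq]; exact Nat.mul_dvd_mul_left r h :
      r ^ 2 ∣ Nat.card (K ⊓ 𝒞(Y) : Subgroup X)).trans (card_dvd_of_le inf_le_left))
  have hpp : ∀ u (hu : u ∈ Y) d (hd : d ∈ D), H5.pPart r (⟨u * d, K.mul_mem (hY hu)
      (hD.right_le hd).1⟩ : K) = ⟨u, hY hu⟩ := fun u hu d hd => by
    refine H5.pPart_mul (x := (⟨u, hY hu⟩ : K)) (y := ⟨d, (hD.right_le hd).1⟩)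
      (Subtype.ext ((hD.right_le hd).2 u hu)) ?_ fun h => hDr (h.trans ?_)
    · exact H5.pElt_of_mem (hS.isPGroup.comap_subtype) hu
    · rw [orderOf_mk]; exact D.orderOf_dvd_natCard hd
  by_cases hB : χ ∈ principalBlock M K
  · have hsum : ∑ u ∈ fs (nt Y), ψ u =
        ∑ u ∈ Finset.univ.erase (1 : Y.subgroupOf K), (χ : K → ℂ) u :=
      (Finset.sum_bij (fun (u : Y.subgroupOf K) _ => ((u : K) : X)) (fun u hu => mem_fs.2 (mem_nt.2 ⟨u.2, fun e =>
        (Finset.mem_erase.1 hu).1 (Subtype.ext (Subtype.ext e))⟩))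
        (fun _ _ _ _ e => Subtype.ext (Subtype.ext e)) (fun u hu => ⟨⟨⟨u, hY (mem_fs.1 hu).1⟩,
          (mem_fs.1 hu).1⟩, Finset.mem_erase.2 ⟨fun e => (mem_nt.1 (mem_fs.1 hu)).2
            (congrArg (fun x : Y.subgroupOf K => ((x : K) : X)) e), Finset.mem_univ _⟩, rfl⟩)
        fun _ _ => rfl).symm
    refine Or.inr ⟨fun u hu hu1 d hd => hF.apply_eq_pPart (v := ⟨u, hY hu⟩) hu
      (fun e => hu1 (congrArg Subtype.val e)) (g := ⟨u * d, _⟩) (by rw [hpp u hu d hd]) hB,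
      ?_⟩
    rw [hsum]
    rcases principal_values hP hF hB with h | h | h
    · exact Or.inl fun u hu hu1 => h ⟨⟨u, hY hu⟩, hu⟩ fun e => hu1
        (congrArg (fun x : Y.subgroupOf K => ((x : K) : X)) e)
    · exact Or.inr (Or.inl (by convert h))
    refine Or.inr (Or.inr ⟨_, ?_, h.1, by convert h.2⟩)
    rw [H3.card_autE]
    exact (relIndex_dvd_card _ _).trans (card_subgroup_dvd_card _)
  · refine Or.inl fun u hu hu1 => ?_
    rw [← sum_eq_zero_of_notMem hF hB (v := ⟨u, hY hu⟩) hu fun e => hu1 (congrArg Subtype.val e)]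
    refine Finset.sum_bij (fun d hd => ⟨u * d, K.mul_mem (hY hu) (hD.right_le (mem_fs.1 hd)).1⟩)
      (fun d hd => mem_fs.2 (hpp u hu d (mem_fs.1 hd)))
      (fun _ _ _ _ e => mul_left_cancel (congrArg Subtype.val e)) (fun g hg => ?_) fun _ _ => rfl
    have h1 : H5.pPart r g = ⟨u, hY hu⟩ := by simpa using hg
    have h2 := H5.pPart_mul_pPart' (p := r) g
    have h3 := H5.commute_pPart_pPart' (p := r) g
    rw [h1] at h2 h3
    have hH : Hall {r}ᶜ D (K ⊓ 𝒞(Y)) := Hall.of_sdp_left hD.symm.sdp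
      ((piN_compl_singleton_iff hr).2 hDr) (by
        rw [compl_compl, PiG, hc]; exact (piN_prime hr).2 rfl)
    refine ⟨(H5.pPart' r g : K), mem_fs.2 (hH.mem_of_normal hD.symm.sdp.normal.norm ?_
      ⟨(H5.pPart' r g).2, ?_⟩), Subtype.ext (congrArg Subtype.val h2)⟩
    · rw [PiE, orderOf_coe]; exact (piN_compl_singleton_iff hr).2 (H5.pPart'_pReg g)
    · rw [← H9.zpowers_eq_of_card_prime hr hc hu hu1, cent_zpowers]
      exact mem_cent1.2 (congrArg Subtype.val h3.eq).symm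

end Cfsg.Agent.TR
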