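import Cfsg.Agent.Lib.TR.Defs
import Cfsg.Agent.Lib.H2.AbAct

/-! # Elementary facts on the action -/

set_option autoImplicit false
set_option linter.unusedSectionVars false

namespace Cfsg.Agent.TR

open Subgroup Cfsg.Agent.H6 Cfsg.Agent.FT
open scoped commutatorElement ComplexConjugate Classical

variable {X : Type*} [Group X] [Finite X] {p n r s : ℕ} {V G A D K L M N U Y : Subgroup X}
  {χ ψ ω l : X → ℂ} {g v x y z : X}

/-- The orbit-stabilizer formula for conjugation. -/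
theorem bas_ncard_class (L : Subgroup X) (v : X) :
    Set.ncard {w | ∃ g ∈ L, g * v * g⁻¹ = w} * Nat.card (L ⊓ 𝒞[v] : Subgroup X) = Nat.card L := by
  let _ : MulAction L X := MulAction.compHom X (MulAut.conj.comp L.subtype)
  have h1 : MulAction.orbit L v = {w | ∃ g ∈ L, g * v * g⁻¹ = w} := by
    ext w
    exact ⟨fun ⟨g, hg⟩ => ⟨g, g.2, hg⟩, fun ⟨g, hg, e⟩ => ⟨⟨g, hg⟩, e⟩⟩
  have h2 : MulAction.stabilizer L v = (𝒞[v]).subgroupOf L := by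
    ext g
    rw [MulAction.mem_stabilizer_iff, mem_subgroupOf, mem_cent1]
    exact mul_inv_eq_iff_eq_mul
  rw [← h1, ← MulAction.index_stabilizer, h2, inf_comm, ← H1.card_subgroupOf,
    index_mul_card]

theorem St.card_G (h : St p n V G χ) (hv : v ∈ V) (hv1 : v ≠ 1) :
    Nat.card G = (p ^ n - 1) * Nat.card (G ⊓ 𝒞[v] : Subgroup X) := by
  rw [← bas_ncard_class G v, ← h.cardV]
  congr 1
  rw [show {w | ∃ g ∈ G, g * v * g⁻¹ = w} = (V : Set X) \ {1} from ?_,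
    Set.ncard_sdiff_singleton_of_mem V.one_mem]
  · rfl
  ext w
  refine ⟨?_, fun hw => h.tr v hv w hw.1 hv1 hw.2⟩
  rintro ⟨g, hg, rfl⟩
  exact ⟨conj_mem_of_mem_normalizer (h.nV hg) hv, by simpa using hv1⟩

theorem St.bas_ne_bot (h : St p n V G χ) : V ≠ ⊥ := fun e => by
  have := h.cardV
  rw [e, card_bot] at this
  exact (Nat.one_lt_pow h.npos.ne' h.hp.one_lt).ne this

theorem St.exists_ne (h : St p n V G χ) : ∃ v ∈ V, v ≠ 1 :=
  (bot_or_exists_ne_one V).resolve_left h.bas_ne_bot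

theorem St.sub_one_dvd (h : St p n V G χ) : p ^ n - 1 ∣ Nat.card G := by
  obtain ⟨v, hv, hv1⟩ := h.exists_ne
  exact ⟨_, h.card_G hv hv1⟩

theorem St.card_dvd_GL (h : St p n V G χ) :
    Nat.card G ∣ ∏ i : Fin n, (p ^ n - p ^ (i : ℕ)) := by
  have := relIndex_cent_dvd_card_GL h.hp (M := V) ⟨le_rfl, h.hV, h.cardV⟩ h.nV
  rwa [← inf_relIndex_right, inf_comm, h.ff, relIndex_bot_left, Finset.prod_range] at this

theorem St.eq_of_norm (h : St p n V G χ) (hU : U ≤ V) (hn : G ≤ 𝒩(U)) : U = ⊥ ∨ U = V := by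
  refine (bot_or_exists_ne_one U).imp_right fun ⟨u, hu, hu1⟩ => le_antisymm hU fun w hw => ?_
  obtain rfl | hw1 := eq_or_ne w 1
  · exact U.one_mem
  obtain ⟨g, hg, rfl⟩ := h.tr u (hU hu) w hw hu1 hw1
  exact conj_mem_of_mem_normalizer (hn hg) hu

theorem card_dvd_sub_one (hA : SemiReg V A) (hU : U ≤ V) (hn : A ≤ 𝒩(U)) :
    Nat.card A ∣ Nat.card U - 1 :=
  (hA.mono hU le_rfl).card_dvd hn

theorem St.semiReg (h : St p n V G χ) (hA : NormalIn A G) (hc : IsMulCommutative A) :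
    SemiReg V A := by
  refine SemiReg.symm fun v hv hv1 => ?_
  have hcard : ∀ v ∈ V, v ≠ 1 → ∀ w ∈ V, w ≠ 1 →
      Nat.card (A ⊓ 𝒞[w] : Subgroup X) = Nat.card (A ⊓ 𝒞[v] : Subgroup X) :=
    fun v hv hv1 w hw hw1 => by
      obtain ⟨g, hg, rfl⟩ := h.tr v hv w hw hv1 hw1
      rw [← card_cj g (A ⊓ 𝒞[v]), cj_inf, cj_eq_self_iff.2 (hA.norm hg), ← cent_zpowers,
        ← cent_zpowers, cj_centralizer, cj_zpowers]
  have heq : ∀ v ∈ V, v ≠ 1 → ∀ w ∈ V, w ≠ 1 → A ⊓ 𝒞[v] ≤ 𝒞[w] → A ⊓ 𝒞[v] = A ⊓ 𝒞[w] :=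
    fun v hv hv1 w hw hw1 hle =>
      eq_of_le_of_card_le (le_inf inf_le_left hle) (hcard v hv hv1 w hw hw1).le
  have hnorm : ∀ w : X, A ≤ 𝒩(V ⊓ 𝒞(A ⊓ 𝒞[w])) := fun w =>
    H1.le_normalizer_inf (hA.le.trans h.nV) (H1.le_normalizer_centralizer
      (((comm_iff.1 hc).trans (cent_le_cent inf_le_left)).trans cent_le_norm))
  have hself : ∀ w ∈ V, w ∈ V ⊓ 𝒞(A ⊓ 𝒞[w]) := fun w hw => ⟨hw, le_cent1_iff.1 inf_le_right⟩
  by_cases hU : V ≤ 𝒞(A ⊓ 𝒞[v])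
  · rw [eq_bot_iff, ← h.ff]
    exact le_inf (inf_le_left.trans hA.le) (cent_comm.1 hU)
  exfalso
  obtain ⟨u, hu, huU⟩ := SetLike.not_le_iff_exists.1 hU
  have hu1 : u ≠ 1 := fun e => huU (e ▸ one_mem _)
  have hne : A ⊓ 𝒞[v] ≠ A ⊓ 𝒞[u] := fun e => huU (e ▸ (hself u hu).2)
  have hw1 : v * u ≠ 1 := fun e => huU (by
    rw [eq_inv_of_mul_eq_one_right e]; exact inv_mem (hself v hv).2)
  have key : ∀ b ∈ A ⊓ 𝒞[v * u], b * v * b⁻¹ = v ∧ b * u * b⁻¹ = u := fun b hb => by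
    have e : v⁻¹ * (b * v * b⁻¹) = u * (b * u * b⁻¹)⁻¹ := by
      have := mem_cent1.1 hb.2
      calc v⁻¹ * (b * v * b⁻¹) = v⁻¹ * (b * (v * u)) * u⁻¹ * b⁻¹ := by group
        _ = _ := by rw [this]; group
    have h1 : v⁻¹ * (b * v * b⁻¹) ∈ V ⊓ 𝒞(A ⊓ 𝒞[v]) :=
      mul_mem (inv_mem (hself v hv)) (conj_mem_of_mem_normalizer (hnorm v hb.1) (hself v hv))
    have h2 : u * (b * u * b⁻¹)⁻¹ ∈ V ⊓ 𝒞(A ⊓ 𝒞[u]) :=
      mul_mem (hself u hu) (inv_mem (conj_mem_of_mem_normalizer (hnorm u hb.1) (hself u hu)))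
    have h3 : v⁻¹ * (b * v * b⁻¹) = 1 := by
      by_contra h3
      exact hne ((heq v hv hv1 _ h1.1 h3 (le_cent1_iff.2 h1.2)).trans
        (heq u hu hu1 _ h1.1 h3 (le_cent1_iff.2 (e ▸ h2.2))).symm)
    exact ⟨(inv_mul_eq_one.1 h3).symm, (mul_inv_eq_one.1 (e ▸ h3)).symm⟩
  have hw := V.mul_mem hv hu
  exact hne ((heq _ hw hw1 v hv hv1 fun b hb => mem_cent1.2 (mul_inv_eq_iff_eq_mul.1
    (key b hb).1)).symm.trans (heq _ hw hw1 u hu hu1 fun b hb => mem_cent1.2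
      (mul_inv_eq_iff_eq_mul.1 (key b hb).2)))

theorem St.cyclic (h : St p n V G χ) (hA : A ≤ G) (hc : IsMulCommutative A) (hs : SemiReg V A) :
    IsCyclic A := by
  have := h.hV.1
  exact H2.isCyclic_of_fpf_on_abelian A V h.bas_ne_bot (hA.trans h.nV) hs (Or.inl hc)

theorem St.bas_exists_card (h : St p n V G χ) (hU : U ≤ V) : ∃ d ≤ n, Nat.card U = p ^ d :=
  (Nat.dvd_prime_pow h.hp).1 (h.cardV ▸ card_dvd_of_le hU)

/-- A semiregular subgroup whose order divides no smaller `p ^ d - 1` is irreducible. -/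
theorem St.irred_of_card (h : St p n V G χ) (hs : SemiReg V A)
    (hd : ∀ d, 0 < d → d < n → ¬ Nat.card A ∣ p ^ d - 1) : Irred V A := by
  intro U hU hn
  obtain ⟨d, hdn, hc⟩ := h.bas_exists_card hU
  obtain rfl | h0 := Nat.eq_zero_or_pos d
  · exact Or.inl (card_eq_one.1 hc)
  obtain rfl | h1 := hdn.eq_or_lt
  · exact Or.inr (eq_of_le_of_card_le hU (by rw [hc, h.cardV]))
  exact (hd d h0 h1 (hc ▸ card_dvd_sub_one hs hU hn)).elim

theorem bas_card_modEq_cent (hs : s.Prime) (hY : IsPGroup s Y) (hn : Y ≤ 𝒩(V)) :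
    Nat.card V ≡ Nat.card (V ⊓ 𝒞(Y) : Subgroup X) [MOD s] := by
  have := Fact.mk hs
  let _ : MulAction Y V := MulAction.compHom V (V.normalizerMonoidHom.comp (inclusion hn))
  have e : ∀ (y : Y) (w : V), y • w = w ↔ (y : X) * w = w * y := fun y w =>
    Subtype.ext_iff.trans mul_inv_eq_iff_eq_mul
  convert hY.card_modEq_card_fixedPoints V using 1
  exact Nat.card_congr ⟨fun w => ⟨⟨w, w.2.1⟩, fun y => (e _ _).2 (w.2.2 y y.2)⟩,
    fun w => ⟨w.1, w.1.2, fun y hy => (e ⟨y, hy⟩ _).1 (w.2 _)⟩, fun _ => rfl, fun _ => rfl⟩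

theorem St.fix_modEq (h : St p n V G χ) (hY : Y ≤ G) (hs : s.Prime) (hc : Nat.card Y = s) {d : ℕ}
    (hd : Nat.card (V ⊓ 𝒞(Y) : Subgroup X) = p ^ d) :
    d ≤ n ∧ orderOf (p : ZMod s) ∣ n - d := by
  have := Fact.mk hs
  have hdn : d ≤ n := (Nat.pow_dvd_pow_iff_le_right h.hp.one_lt).1
    (by rw [← hd, ← h.cardV]; exact card_dvd_of_le inf_le_left)
  refine ⟨hdn, orderOf_dvd_of_pow_eq_one ?_⟩
  have h1 := bas_card_modEq_cent hs (isPGroup_of_card_eq hc) (hY.trans h.nV)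
  rw [hd, h.cardV, ← ZMod.natCast_eq_natCast_iff, Nat.cast_pow, Nat.cast_pow] at h1
  have h0 : (p : ZMod s) ≠ 0 := fun e => h.cop (by
    rw [ZMod.natCast_eq_zero_iff, Nat.prime_dvd_prime_iff_eq hs h.hp] at e
    rw [← e, ← hc]; exact card_dvd_of_le hY)
  refine mul_right_cancel₀ (pow_ne_zero d h0) ?_
  rw [← pow_add, Nat.sub_add_cancel hdn, h1, one_mul]

theorem St.semiReg_of_ord (h : St p n V G χ) (hY : Y ≤ G) (hr : r.Prime) (hc : Nat.card Y = r)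
    (ho : orderOf (p : ZMod r) = n) : SemiReg V Y ∧ V ⊓ 𝒞(Y) = ⊥ ∧ Irred V Y := by
  have hb : V ⊓ 𝒞(Y) = ⊥ := by
    obtain ⟨d, -, hd⟩ := h.bas_exists_card (U := V ⊓ 𝒞(Y)) inf_le_left
    obtain ⟨h1, h2⟩ := h.fix_modEq hY hr hc hd
    rw [ho] at h2
    obtain rfl | h0 := Nat.eq_zero_or_pos d
    · exact card_eq_one.1 hd
    have h3 : d = n := by
      have := Nat.eq_zero_of_dvd_of_lt h2 (by have := h.npos; omega)
      omega
    have h4 := eq_of_le_of_card_le (inf_le_left : V ⊓ 𝒞(Y) ≤ V) (by rw [hd, h.cardV, h3])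
    refine (ne_bot_of_card_prime (hc ▸ hr) ?_).elim
    rw [eq_bot_iff, ← h.ff]
    exact le_inf hY (cent_comm.1 (inf_eq_left.1 h4))
  have hs : SemiReg V Y := (semiPrime_of_card_prime (hc ▸ hr)).semiReg hb
  refine ⟨hs, hb, h.irred_of_card hs fun d h0 hd hdv => ?_⟩
  rw [hc, ← ZMod.natCast_eq_zero_iff, Nat.cast_sub (Nat.one_le_pow _ _ h.hp.pos), Nat.cast_pow,
    Nat.cast_one, sub_eq_zero, ← orderOf_dvd_iff_pow_eq_one, ho] at hdv
  exact absurd (Nat.le_of_dvd h0 hdv) hd.not_ge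

theorem St.eq_bot_of_ord (h : St p n V G χ) (hG : ¬ Gam V G) (hr : r.Prime)
    (ho : orderOf (p : ZMod r) = n) (hN : NormalIn N G) (hNr : IsPGroup r N) : N = ⊥ := by
  by_contra h1
  have := Fact.mk hr
  have hZ : Zc N ≤ N := inf_le_left
  obtain ⟨Y, hY, hc⟩ := exists_card_eq_prime hr (H := Zc N)
    ((hNr.to_le hZ).card_eq_or_dvd.resolve_left fun e =>
      Zc_ne_bot (nil_of_pgroup hNr) h1 (card_eq_one.1 e))
  exact hG ⟨Zc N, ⟨hZ.trans hN.le, hN.norm.trans (norm_le_norm_Zc N)⟩, Zc_comm N,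
    fun U hU hn => (h.semiReg_of_ord (hY.trans (hZ.trans hN.le)) hr hc ho).2.2 U hU (hY.trans hn)⟩

theorem kc_le_card (L : Subgroup X) : kc L ≤ Nat.card L :=
  Nat.card_le_card_of_surjective _ ConjClasses.mk_surjective

theorem kc_mul_card (L : Subgroup X) :
    kc L * Nat.card L = ∑ g ∈ fs (L : Set X), Nat.card (L ⊓ 𝒞[g] : Subgroup X) := by
  have := Fintype.ofFinite L
  rw [sum_fs_subgroup, ← H4.sum_card_centralizer L]
  refine Finset.sum_congr rfl fun g _ => ?_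
  rw [inf_comm, ← H1.card_subgroupOf]
  congr 2
  ext a
  rw [mem_subgroupOf, mem_cent1, mem_cent1, Subtype.ext_iff]
  rfl

end Cfsg.Agent.TR
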