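import Cfsg.Agent.Lib.TR.Defs
import Cfsg.Agent.Lib.FT.PF01

/-! # A congruence of Blichfeldt -/

set_option autoImplicit false
set_option linter.unusedSectionVars false

namespace Cfsg.Agent.TR

open Subgroup Cfsg.Agent.H6 Cfsg.Agent.FT
open scoped commutatorElement ComplexConjugate Classical

namespace Blich

/-- The radical of `r` in the algebraic integers. -/
noncomputable def J (r : ℕ) : Ideal AlgInt := (Ideal.span {(r : AlgInt)}).radical

/-- The radical of `r`, as a subgroup of the complex numbers. -/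
noncomputable def Jc (r : ℕ) : AddSubgroup ℂ :=
  (J r).toAddSubgroup.map AlgInt.val.toRingHom.toAddMonoidHom

theorem coe_mem_Jc {r : ℕ} {a : AlgInt} (ha : a ∈ J r) : (a : ℂ) ∈ Jc r := ⟨a, ha, rfl⟩

theorem mul_mem_Jc {r : ℕ} {a : AlgInt} (ha : a ∈ J r) {b : ℂ} (hb : IsIntegral ℤ b) :
    (a : ℂ) * b ∈ Jc r := ⟨a * ⟨b, hb⟩, (J r).mul_mem_right _ ha, rfl⟩

theorem natCast_mem_J (r : ℕ) : (r : AlgInt) ∈ J r :=
  Ideal.le_radical (Ideal.mem_span_singleton_self _)

theorem dvd_of_mem_Jc {r : ℕ} (hr : r.Prime) {m : ℤ} (hm : (m : ℂ) ∈ Jc r) : (r : ℤ) ∣ m := by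
  obtain ⟨a, ⟨k, hk⟩, ha⟩ := hm
  obtain ⟨w, hw⟩ := Ideal.mem_span_singleton'.1 hk
  have ha' : (a : ℂ) = m := ha
  have h1 : EqAmod ((r : ℤ) : ℂ) ((m ^ k : ℤ) : ℂ) ((0 : ℤ) : ℂ) := by
    refine ⟨w, w.2, ?_⟩
    have := congrArg (fun t : AlgInt => (t : ℂ)) hw
    push_cast at this ⊢
    rw [← ha', ← this]; ring
  have h2 := dvd_of_eqAmod_int h1
  rw [sub_zero] at h2
  exact (Nat.prime_iff_prime_int.1 hr).dvd_of_dvd_pow h2

theorem sub_one_mem_J {r : ℕ} (hr : r.Prime) {ζ : AlgInt} (hζ : ζ ^ r ^ 2 = 1) : ζ - 1 ∈ J r := by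
  obtain ⟨w, hw⟩ := exists_add_pow_prime_pow_eq hr (ζ - 1) 1 2
  rw [sub_add_cancel, hζ, one_pow] at hw
  refine ⟨r ^ 2, Ideal.mem_span_singleton'.2 ⟨-((ζ - 1) * w), ?_⟩⟩
  linear_combination hw

open Polynomial in
theorem exists_poly {r : ℕ} (hr : r.Prime) (Q : ℂ[X]) (hQ : Q.Monic) (hd : Q.natDegree ≤ r)
    (h1 : ∀ ζ ∈ Q.roots, ζ ^ r ^ 2 = 1) : ∃ (P : AlgInt[X]) (R : ℂ[X]), (∀ j, P.coeff j ∈ J r) ∧
      X ^ r - 1 = P.map AlgInt.val.toRingHom + R * Q := by
  have hint : ∀ ζ ∈ Q.roots, IsIntegral ℤ ζ := fun ζ hζ =>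
    IsIntegral.of_pow (pow_pos hr.pos 2) (by rw [h1 ζ hζ]; exact isIntegral_one)
  let S : Multiset AlgInt := Q.roots.pmap (fun ζ h => ⟨ζ, h⟩) hint
  let Q0 : AlgInt[X] := (S.map fun ζ => X - C ζ).prod
  have hsp := IsAlgClosed.splits Q
  have hS : S.map (fun ζ : AlgInt => (ζ : ℂ)) = Q.roots := by
    exact (Multiset.map_pmap _ _ _ _).trans ((Multiset.pmap_eq_map _ _ _ _).trans (Multiset.map_id' _))
  have hcard : S.card = Q.natDegree := by
    rw [← hsp.natDegree_eq_card_roots.symm, ← hS, Multiset.card_map]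
  have hQ0 : Q0.map AlgInt.val.toRingHom = Q := by
    conv_rhs => rw [hsp.eq_prod_roots_of_monic hQ, ← hS]
    simp [Q0, Polynomial.map_multiset_prod, Multiset.map_map]
  refine ⟨X ^ r - 1 - (X - 1) ^ (r - Q.natDegree) * Q0, (X - 1) ^ (r - Q.natDegree), fun j => ?_, ?_⟩
  · rw [← Ideal.Quotient.eq_zero_iff_mem, ← coeff_map]
    have h2 : Q0.map (Ideal.Quotient.mk (J r)) = (X - 1) ^ Q.natDegree := by
      simp only [Q0, Polynomial.map_multiset_prod, Multiset.map_map]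
      rw [← hcard]
      refine (congrArg Multiset.prod (Multiset.map_congr rfl fun ζ hζ => ?_)).trans
        ((congrArg Multiset.prod (Multiset.map_const' S (X - 1))).trans
          (Multiset.prod_replicate _ _))
      have h3 : ζ ^ r ^ 2 = 1 := by
        apply Subtype.ext
        have := h1 ζ (hS ▸ Multiset.mem_map_of_mem _ hζ)
        simpa using this
      have h4 : Ideal.Quotient.mk (J r) ζ = 1 := by
        rw [← sub_eq_zero, ← map_one (Ideal.Quotient.mk (J r)), ← map_sub,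
          Ideal.Quotient.eq_zero_iff_mem]
        exact sub_one_mem_J hr h3
      simp [h4]
    have h5 : (r : (AlgInt ⧸ J r)[X]) = 0 := by
      rw [← C_eq_natCast, ← map_natCast (Ideal.Quotient.mk (J r)),
        Ideal.Quotient.eq_zero_iff_mem.2 (natCast_mem_J r), C_0]
    obtain ⟨w, hw⟩ := exists_add_pow_prime_eq hr (X - 1 : (AlgInt ⧸ J r)[X]) 1
    have h6 : (X ^ r - 1 - (X - 1) ^ (r - Q.natDegree) * Q0).map (Ideal.Quotient.mk (J r)) = 0 := by
      simp only [Polynomial.map_sub, Polynomial.map_mul, Polynomial.map_pow, map_X,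
        Polynomial.map_one, h2]
      rw [← pow_add, Nat.sub_add_cancel hd]
      rw [sub_add_cancel, h5, one_pow] at hw
      rw [hw]; ring
    rw [h6, coeff_zero]
  · simp only [Polynomial.map_sub, Polynomial.map_mul, Polynomial.map_pow, map_X,
      Polynomial.map_one, hQ0]
    ring

open Polynomial in
theorem char_pow_sub {H : Type*} [Group H] [Finite H] {r : ℕ} (hr : r.Prime) {χ : H → ℂ}
    (h : IsCharacter H χ) (hint : ∀ g, IsIntegral ℤ (χ g)) (hd : charDegree χ ≤ r)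
    (hdeg : (charDegree χ : ℂ) = χ 1) {z : H} (hz : z ^ r ^ 2 = 1) (g : H) :
    χ (z ^ r * g) - χ g ∈ Jc r := by
  obtain ⟨d, ρ, rfl⟩ := h
  have hd' : charDegree ρ.character = d := by
    have : (charDegree ρ.character : ℂ) = d := by
      rw [hdeg, Representation.char_one]; simp
    exact_mod_cast this
  have hint' : IsIntegral ℂ (ρ z) := Algebra.IsIntegral.isIntegral _
  obtain ⟨P, R, hP, hE⟩ := exists_poly hr (minpoly ℂ (ρ z)) (minpoly.monic hint')
    ((natDegree_le_of_dvd (LinearMap.minpoly_dvd_charpoly _)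
      (LinearMap.charpoly_monic _).ne_zero).trans (by
        rw [LinearMap.charpoly_natDegree]; simpa [← hd'] using hd))
    (fun ζ hζ => by
      have h1 : minpoly ℂ (ρ z) ∣ X ^ r ^ 2 - 1 := minpoly.dvd _ _ (by
        rw [map_sub, map_pow, aeval_X, map_one, ← map_pow, hz, map_one, sub_self])
      have := (isRoot_of_mem_roots hζ).dvd h1
      simpa [sub_eq_zero] using this)
  have h2 := congrArg (aeval (ρ z)) hE
  simp only [map_sub, map_pow, aeval_X, map_one, map_add, map_mul, minpoly.aeval, mul_zero,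
    add_zero] at h2
  have h3 : ρ.character (z ^ r * g) - ρ.character g =
      LinearMap.trace ℂ _ (((ρ z) ^ r - 1) * ρ g) := by
    simp [Representation.character, sub_mul]
  rw [h3, h2, aeval_eq_sum_range, Finset.sum_mul, map_sum]
  refine AddSubgroup.sum_mem _ fun j _ => ?_
  have h4 : LinearMap.trace ℂ _ ((P.map AlgInt.val.toRingHom).coeff j • (ρ z) ^ j * ρ g) =
      (P.coeff j : ℂ) * ρ.character (z ^ j * g) := by
    simp [Representation.character, coeff_map]
  rw [h4]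
  exact mul_mem_Jc (hP j) (hint _)

end Blich

variable {X : Type*} [Group X] [Finite X] {p n r s : ℕ} {V G A D K L M N U Y : Subgroup X}
  {χ ψ ω l : X → ℂ} {g v x y z : X}

theorem blichfeldt (h : IsChar L χ) (hk : cfker L χ = ⊥) (hr : r.Prime) (hd : deg χ < r)
    (hz : z ∈ L) (ho : orderOf z = r ^ 2) : ∃ N, NormalIn N L ∧ IsPGroup r N ∧ N ≠ ⊥ := by
  let N : Subgroup X :=
    { carrier := {g | g ∈ L ∧ ∀ k ∈ L, χ (g * k) - χ k ∈ Blich.Jc r}
      one_mem' := ⟨L.one_mem, fun k _ => by simp⟩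
      mul_mem' := fun {a b} ha hb => ⟨L.mul_mem ha.1 hb.1, fun k hk => by
        have := (Blich.Jc r).add_mem (ha.2 (b * k) (L.mul_mem hb.1 hk)) (hb.2 k hk)
        simpa [mul_assoc] using this⟩
      inv_mem' := fun {a} ha => ⟨L.inv_mem ha.1, fun k hk => by
        have := (Blich.Jc r).neg_mem (ha.2 (a⁻¹ * k) (L.mul_mem (L.inv_mem ha.1) hk))
        simpa using this⟩ }
  have hN : ∀ g, g ∈ N ↔ g ∈ L ∧ ∀ k ∈ L, χ (g * k) - χ k ∈ Blich.Jc r := fun _ => Iff.rfl
  refine ⟨N, NormalIn.of_conj_mem (fun g hg => hg.1) fun y hy a ha => (hN _).2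
    ⟨L.mul_mem (L.mul_mem hy ha.1) (L.inv_mem hy), fun k hk => ?_⟩, ?_, ?_⟩
  · have h1 := ha.2 (y⁻¹ * k * y) (L.mul_mem (L.mul_mem (L.inv_mem hy) hk) hy)
    have h2 : χ (y * a * y⁻¹ * k) = χ (a * (y⁻¹ * k * y)) := by
      rw [← h.inv y hy (a * (y⁻¹ * k * y))]; congr 1; group
    have h3 : χ (y⁻¹ * k * y) = χ k := CF_conj' h.mem_CF hy k
    rwa [h2, ← h3]
  · have := Fact.mk hr
    refine IsPGroup.iff_card.2 ⟨_, (Nat.eq_prime_pow_of_unique_prime_dvd Nat.card_pos.ne'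
      fun {s} hs hsd => ?_)⟩
    by_contra hsr
    have := Fact.mk hs
    obtain ⟨y, hy⟩ := exists_prime_orderOf_dvd_card' s hsd
    have hyL : zpowers (y : X) ≤ L := zpowers_le.2 y.2.1
    have hyN : zpowers (y : X) ≤ N := zpowers_le.2 y.2
    have hc : Nat.card (zpowers (y : X)) = s := by rw [Nat.card_zpowers, orderOf_coe, hy]
    obtain ⟨u, hu⟩ := h.cfdot_of_le hyL (isChar_cf1 _)
    have hsub := (h.res hyL).sub_smul_Irr (cf1_mem_Irr _)
    rw [cfdot_Res_left, hu] at hsub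
    have hle : u ≤ deg χ := by
      obtain ⟨m, hm⟩ := hsub.apply_one
      simp only [Pi.sub_apply, Res_one, Pi.smul_apply, cf1_one, smul_eq_mul, mul_one,
        ← h.deg_cast] at hm
      have : deg χ = m + u := by exact_mod_cast sub_eq_iff_eq_add.1 hm
      omega
    have h1 : ∑ k ∈ fs (zpowers (y : X) : Set X), (χ k - χ 1) ∈ Blich.Jc r :=
      AddSubgroup.sum_mem _ fun k hk => by
        simpa using (hyN (mem_fs.1 hk)).2 1 L.one_mem
    rw [cfdot_cf1, hc] at hu
    have hs0 : (s : ℂ) ≠ 0 := Nat.cast_ne_zero.2 hs.ne_zero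
    have h2 : ∑ k ∈ fs (zpowers (y : X) : Set X), (χ k - χ 1) =
        ((s * ((u : ℤ) - deg χ) : ℤ) : ℂ) := by
      rw [Finset.sum_sub_distrib, Finset.sum_const, card_fs_subgroup, hc, ← h.deg_cast,
        (inv_mul_eq_iff_eq_mul₀ hs0).1 hu]
      push_cast; ring
    rw [h2] at h1
    have h3 := ((Nat.prime_iff_prime_int.1 hr).dvd_or_dvd (Blich.dvd_of_mem_Jc hr h1)).resolve_left
      (fun e => hsr ((Nat.prime_dvd_prime_iff_eq hr hs).1 (Int.natCast_dvd_natCast.1 e)).symm)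
    have h4 : u = deg χ := by
      have := Int.eq_zero_of_abs_lt_dvd h3 (by rw [abs_lt]; constructor <;> omega)
      omega
    have h5 := hsub.eq_zero_of_apply_one (by simp [h4, h.deg_cast])
    have h6 := congrFun h5 y
    simp only [Pi.sub_apply, Pi.smul_apply, smul_eq_mul, Pi.zero_apply,
      Res_of_mem (mem_zpowers (y : X)), cf1_of_mem (mem_zpowers (y : X)), mul_one, h4,
      h.deg_cast, sub_eq_zero] at h6
    have h7 : (y : X) ∈ cfker L χ := h.mem_cfker.2 ⟨y.2.1, h6⟩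
    rw [hk, mem_bot] at h7
    have : orderOf y = 1 := by rw [← orderOf_coe, h7, orderOf_one]
    exact hs.one_lt.ne' (hy ▸ this)
  · intro hb
    have h1 : z ^ r ∈ N := (hN _).2 ⟨L.pow_mem hz r, fun k hk => by
      have := Blich.char_pow_sub (H := L) hr h.2 (fun g => h.isIntegral g)
        (by rw [show charDegree (fun x : L => χ x) = deg χ from deg_congr rfl]; exact hd.le)
        (by rw [show charDegree (fun x : L => χ x) = deg χ from deg_congr rfl]; exact h.deg_cast)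
        (z := ⟨z, hz⟩) (Subtype.ext (by simp [← ho])) ⟨k, hk⟩
      simpa using this⟩
    rw [hb, mem_bot] at h1
    have := Nat.le_of_dvd hr.pos (ho ▸ orderOf_dvd_of_pow_eq_one h1)
    nlinarith [hr.two_le]

end Cfsg.Agent.TR
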