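import Cfsg.Agent.Lib.FT.Lift
import Cfsg.Agent.Lib.FT.BG03b
import Cfsg.Agent.Lib.H4.KGV
import Cfsg.Agent.Lib.H4.GroupCount

/-!
# Coprime linear groups transitive on nonzero vectors: vocabulary

See `notes/TR.md` for the proof.
-/

set_option autoImplicit false
set_option linter.unusedSectionVars false

namespace Cfsg.Agent.TR

open Subgroup Cfsg.Agent.H6 Cfsg.Agent.FT
open scoped commutatorElement ComplexConjugate Classical

variable {X : Type*} [Group X] [Finite X]

/-- `G` is a `p'`-group acting faithfully and transitively on the nonidentity elements of the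
elementary abelian group `V` of order `p ^ n`, and `χ` is a complex lift of `V`. -/
structure St (p n : ℕ) (V G : Subgroup X) (χ : X → ℂ) : Prop where
  hp : p.Prime
  hV : IsElementaryAbelian p V
  nV : G ≤ 𝒩(V)
  cop : ¬ p ∣ Nat.card G
  ff : G ⊓ 𝒞(V) = ⊥
  tr : ∀ v ∈ V, ∀ w ∈ V, v ≠ 1 → w ≠ 1 → ∃ g ∈ G, g * v * g⁻¹ = w
  cardV : Nat.card V = p ^ n
  npos : 0 < n
  ch : IsChar G χ
  dg : deg χ = n
  fx : ∀ A ≤ G, ∃ d : ℕ, Nat.card (V ⊓ 𝒞(A) : Subgroup X) = p ^ d ∧ ⟪χ, cf1 A⟫[A] = d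
  ker : cfker G χ = ⊥
  gal : ∀ g ∈ G, χ (g ^ p) = χ g

/-- `A` acts irreducibly on `V`. -/
def Irred (V A : Subgroup X) : Prop := ∀ U, U ≤ V → A ≤ 𝒩(U) → U = ⊥ ∨ U = V

/-- `G` has an irreducible abelian normal subgroup (so it is one-dimensional semilinear). -/
def Gam (V G : Subgroup X) : Prop := ∃ A, NormalIn A G ∧ IsMulCommutative A ∧ Irred V A

/-- The class number. -/
noncomputable abbrev kc (L : Subgroup X) : ℕ := Nat.card (ConjClasses L)

def Small (V G : Subgroup X) : Prop :=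
  ∀ v ∈ V, v ≠ 1 → kc G + kc (G ⊓ 𝒞[v]) < Nat.card V

/-- The multiplicity of `l` in the restriction of `χ` to `Y`. -/
noncomputable def mult (χ : X → ℂ) (Y : Subgroup X) (l : X → ℂ) : ℕ := ⌊(⟪χ, l⟫[Y]).re⌋₊

/-- The irreducible constituents of the restriction of `χ` to `Y`. -/
noncomputable def spt (χ : X → ℂ) (Y : Subgroup X) : Finset (X → ℂ) :=
  (Irr Y).filter fun l => mult χ Y l ≠ 0

end Cfsg.Agent.TR
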