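import Mathlib

/-! # Primitive prime divisors -/

set_option autoImplicit false

namespace Cfsg.Agent.TR

open Polynomial Finset

/-- The value of the cyclotomic polynomial. -/
noncomputable def cv (n a : ℕ) : ℕ := ((cyclotomic n ℤ).eval (a : ℤ)).natAbs

theorem cv_cast {a : ℕ} (ha : 1 < a) (n : ℕ) (R : Type*) [CommRing R] :
    (cv n a : R) = (cyclotomic n R).eval (a : R) := by
  have h : (cv n a : ℤ) = (cyclotomic n ℤ).eval (a : ℤ) :=
    Int.natAbs_of_nonneg (cyclotomic_pos' n (by exact_mod_cast ha)).le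
  have := cyclotomic.eval_apply (a : ℤ) n (Int.castRingHom R)
  simpa [← h] using this.symm

theorem cv_pos {a : ℕ} (ha : 1 < a) (n : ℕ) : 0 < cv n a := by
  have := cyclotomic_pos' n (show (1 : ℤ) < a by exact_mod_cast ha)
  rw [← cv_cast ha] at this
  exact_mod_cast this

theorem prod_cv {a n : ℕ} (ha : 1 < a) (hn : 0 < n) :
    cv n a * ∏ d ∈ n.properDivisors, cv d a = a ^ n - 1 := by
  have := congrArg (eval (a : ℤ)) (prod_cyclotomic_eq_X_pow_sub_one hn ℤ)
  rw [← Nat.cons_self_properDivisors hn.ne', prod_cons, eval_mul, eval_prod] at this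
  zify [Nat.one_le_pow n a (by omega)]
  simpa [cv_cast ha] using this

theorem cv_prime {a n s : ℕ} (ha : 1 < a) (hn : 0 < n) (hs : s.Prime) (h : s ∣ cv n a) :
    ∃ k, n = s ^ k * orderOf (a : ZMod s) ∧ orderOf (a : ZMod s) ∣ s - 1 := by
  haveI := Fact.mk hs
  obtain ⟨k, m, hm, rfl⟩ := Nat.exists_eq_pow_mul_and_not_dvd hn.ne' s hs.ne_one
  haveI : NeZero (m : ZMod s) := ⟨by rwa [Ne, ZMod.natCast_eq_zero_iff]⟩
  rw [← ZMod.natCast_eq_zero_iff, cv_cast ha] at h
  have h1 := isRoot_cyclotomic_prime_pow_mul_iff_of_charP.1 h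
  refine ⟨k, by rw [← h1.eq_orderOf], ZMod.orderOf_dvd_card_sub_one fun h0 => ?_⟩
  have := h1.pow_eq_one
  rw [h0, zero_pow (fun e : m = 0 => hm (e ▸ dvd_zero s))] at this
  exact zero_ne_one this

theorem cv_sq {a n s : ℕ} (ha : 1 < a) (hn : 3 ≤ n) (hs : s.Prime) (h : s ∣ cv n a)
    (ho : orderOf (a : ZMod s) ≠ n) : s ∣ n ∧ ¬ s ^ 2 ∣ cv n a := by
  obtain ⟨k, hk, hd⟩ := cv_prime ha (by omega) hs h
  obtain _ | k := k
  · exact (ho (by rw [hk]; simp)).elim
  refine ⟨hk ▸ (dvd_pow_self s k.succ_ne_zero).mul_right _, fun h2 => ?_⟩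
  obtain ⟨m, hm⟩ : ∃ m, m = s ^ k * orderOf (a : ZMod s) := ⟨_, rfl⟩
  have e : n = m * s := by rw [hk, hm]; ring
  have hm0 : 0 < m := Nat.pos_of_ne_zero fun h0 => by rw [h0] at e; omega
  have h1 : (a : ℤ) ^ m - 1 ≠ 0 := by
    have : (1 : ℤ) < (a : ℤ) ^ m := one_lt_pow₀ (by exact_mod_cast ha) hm0.ne'
    omega
  have h3 : (cv n a : ℤ) ∣ ∑ i ∈ range s, ((a : ℤ) ^ m) ^ i := by
    have := eval_dvd (x := (a : ℤ)) (X_pow_sub_one_mul_cyclotomic_dvd_X_pow_sub_one_of_dvd ℤ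
      (d := m) (n := n) (Nat.mem_properDivisors.2 ⟨e ▸ dvd_mul_right _ _, by
        rw [e]; exact lt_mul_of_one_lt_right hm0 hs.one_lt⟩))
    simp only [eval_mul, eval_sub, eval_pow, eval_X, eval_one] at this
    rw [← cv_cast ha] at this
    conv_rhs at this => rw [e, pow_mul, ← mul_geom_sum]
    exact (mul_dvd_mul_iff_left h1).1 this
  have h4 : (s : ℤ) ^ 2 ∣ ∑ i ∈ range s, ((a : ℤ) ^ m) ^ i := (by exact_mod_cast h2 : _ ∣ _).trans h3
  have h5 : ∀ j, orderOf (a : ZMod s) ∣ j → (s : ℤ) ∣ (a : ℤ) ^ j - 1 := fun j hj => by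
    rw [← ZMod.intCast_zmod_eq_zero_iff_dvd]
    push_cast
    rw [orderOf_dvd_iff_pow_eq_one.1 hj, sub_self]
  rcases hs.eq_two_or_odd' with rfl | hodd
  · obtain _ | k := k
    · rw [Nat.dvd_one.1 hd] at hk; omega
    obtain ⟨t, ht⟩ := h5 (2 ^ k * orderOf (a : ZMod 2)) (dvd_mul_left _ _)
    rw [show (a : ℤ) ^ m = ((a : ℤ) ^ (2 ^ k * orderOf (a : ZMod 2))) ^ 2 by
      rw [← pow_mul, hm]; congr 1; ring, eq_add_of_sub_eq ht] at h4
    simp only [sum_range_succ, range_zero, sum_empty] at h4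
    have : (4 : ℤ) ∣ 2 := by
      have h6 := dvd_sub h4 (dvd_mul_right (4 : ℤ) (t ^ 2 + t))
      rwa [show ((0 : ℤ) + ((((2 : ℕ) : ℤ) * t + 1) ^ 2) ^ 0 + ((((2 : ℕ) : ℤ) * t + 1) ^ 2) ^ 1) -
        4 * (t ^ 2 + t) = 2 by push_cast; ring] at h6
    omega
  · obtain ⟨t, ht⟩ := h5 m (hm ▸ dvd_mul_left _ _)
    have h6 := odd_sq_dvd_geom_sum₂_sub (1 : ℤ) t hodd
    simp only [one_pow, mul_one] at h6
    rw [show (a : ℤ) ^ m = 1 + s * t by linear_combination ht] at h4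
    have h7 := dvd_sub h4 h6
    rw [sub_sub_cancel, sq] at h7
    have := Int.le_of_dvd (by exact_mod_cast hs.pos) h7
    have : (1 : ℤ) < s := by exact_mod_cast hs.one_lt
    nlinarith

theorem cv_dvd {a n : ℕ} (ha : 1 < a) (hn : 0 < n) : cv n a ∣ a ^ n - 1 :=
  prod_cv ha hn ▸ dvd_mul_right _ _

theorem cube_le_totient (n : ℕ) :
    n ^ 3 ≤ (if 2 ∣ n then 8 else 1) * (if 3 ∣ n then 2 else 1) * n.totient ^ 4 := by
  induction n using Nat.recOnPosPrimePosCoprime with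
  | zero => simp
  | one => simp
  | prime_pow q k hq hk =>
    obtain ⟨k, rfl⟩ := Nat.exists_eq_succ_of_ne_zero hk.ne'
    rw [Nat.totient_prime_pow_succ hq]
    have h1 : q ^ 3 ≤ (if 2 ∣ q ^ (k + 1) then 8 else 1) * (if 3 ∣ q ^ (k + 1) then 2 else 1) *
        (q - 1) ^ 4 := by
      obtain rfl | h2 := eq_or_ne q 2
      · rw [if_pos (dvd_pow_self 2 k.succ_ne_zero)]; split_ifs <;> norm_num
      obtain rfl | h3 := eq_or_ne q 3
      · rw [if_pos (dvd_pow_self 3 k.succ_ne_zero)]; split_ifs <;> norm_num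
      obtain ⟨r, rfl⟩ : ∃ r, q = r + 4 := ⟨q - 4, by have := hq.two_le; omega⟩
      have : (r + 4) ^ 3 ≤ (r + 4 - 1) ^ 4 := by
        rw [show r + 4 - 1 = r + 3 by omega]; nlinarith [Nat.zero_le r, sq_nonneg r, pow_pos (Nat.succ_pos r) 3, Nat.zero_le (r ^ 3), Nat.zero_le (r ^ 4)]
      refine this.trans (Nat.le_mul_of_pos_left _ ?_)
      split_ifs <;> norm_num
    have h2 : (q ^ k) ^ 3 ≤ (q ^ k) ^ 4 := Nat.pow_le_pow_right (pow_pos hq.pos k) (by norm_num)
    calc (q ^ (k + 1)) ^ 3 = q ^ 3 * (q ^ k) ^ 3 := by ring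
      _ ≤ _ := Nat.mul_le_mul h1 h2
      _ = _ := by ring
  | coprime a b _ _ hab ha hb =>
    rw [Nat.totient_mul hab, mul_pow, mul_pow]
    have key : ∀ q c : ℕ, q.Prime → (if q ∣ a * b then c else 1) =
        (if q ∣ a then c else 1) * (if q ∣ b then c else 1) := fun q c hq => by
      by_cases h1 : q ∣ a <;> by_cases h2 : q ∣ b <;> simp [hq.dvd_mul, h1, h2]
      exact (hq.ne_one (Nat.dvd_one.1 (hab ▸ Nat.dvd_gcd h1 h2))).elim
    rw [key 2 8 Nat.prime_two, key 3 2 Nat.prime_three]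
    exact (Nat.mul_le_mul ha hb).trans (le_of_eq (by ring))

/-- A computable form of `cv`. -/
def cyc (a : ℕ) : ℕ → ℕ → ℕ
  | 0, _ => 1
  | f + 1, n => (a ^ n - 1) / ∏ d ∈ n.properDivisors, cyc a f d

theorem cyc_eq {a : ℕ} (ha : 1 < a) : ∀ f n, 0 < n → n ≤ f → cyc a f n = cv n a
  | 0, n, h1, h2 => by omega
  | f + 1, n, h1, h2 => by
    rw [cyc, ← prod_cv ha h1, prod_congr rfl fun d hd => cyc_eq ha f d
      (Nat.pos_of_mem_properDivisors hd) (by have := (Nat.mem_properDivisors.1 hd).2; omega),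
      Nat.mul_div_cancel _ (prod_pos fun d _ => cv_pos ha d)]

theorem nt_check1 : ∀ n < 165, 3 ≤ n → n * (n + 1) * (2 * n + 1) ≤ 24 ^ n.totient := by
  decide +kernel

/-- The finite check. -/
def ntChk (n k : ℕ) : Bool :=
  !(decide (3 ≤ n) && decide (0 < k) && decide ((2 * k) ^ n.totient < n * (n + 1) * (2 * n + 1)) &&
    decide (n * (n + 1) * (2 * n + 1) % cyc (2 * k + 1) n n = 0)) ||
      decide ((k, n) ∈ [(1, 4), (1, 6), (2, 6), (8, 6), (1, 18)])

theorem nt_check2 : ∀ n < 165, ∀ k < 12, ntChk n k = true := by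
  decide +kernel

theorem nt_odd {p n : ℕ} (hp : p.Prime) (hp2 : p ≠ 2) (hn : 3 ≤ n)
    (h : ∀ r : ℕ, r.Prime → orderOf (p : ZMod r) = n → r ≤ 2 * n + 1 ∧ ¬ r ^ 2 ∣ p ^ n - 1) :
    (p = 3 ∧ n = 4) ∨ ((p = 3 ∨ p = 5 ∨ p = 17) ∧ n = 6) ∨ (p = 3 ∧ n = 18) := by
  have ha := hp.one_lt
  have key : ∀ s, s.Prime → s ∣ cv n p → s ∣ n * (n + 1) * (2 * n + 1) ∧ ¬ s ^ 2 ∣ cv n p := by
    intro s hs hd
    by_cases ho : orderOf (p : ZMod s) = n
    · obtain ⟨h1, h2⟩ := h s hs ho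
      refine ⟨?_, fun h3 => h2 (h3.trans (cv_dvd ha (by omega)))⟩
      obtain ⟨-, -, t, ht⟩ := cv_prime ha (by omega) hs hd
      rw [ho] at ht
      have := hs.two_le
      have t3 : t < 3 := by by_contra! h3; have := Nat.mul_le_mul_left n h3; omega
      interval_cases t
      · omega
      · exact (show s = n + 1 by omega) ▸ (dvd_mul_left _ _).mul_right _
      · exact (show s = 2 * n + 1 by omega) ▸ dvd_mul_left _ _
    · obtain ⟨h1, h2⟩ := cv_sq ha hn hs hd ho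
      exact ⟨(h1.mul_right _).mul_right _, h2⟩
  have hdvd : cv n p ∣ n * (n + 1) * (2 * n + 1) := by
    refine (Nat.dvd_iff_prime_pow_dvd_dvd _ _).2 fun s k hs hk => ?_
    obtain _ | _ | k := k
    · simp
    · simpa using (key s hs (by simpa using hk)).1
    · exact ((key s hs ((dvd_pow_self s (by omega)).trans hk)).2
        ((pow_dvd_pow s (by omega)).trans hk)).elim
  have hlt : (p - 1) ^ n.totient < n * (n + 1) * (2 * n + 1) :=
    (sub_one_pow_totient_lt_natAbs_cyclotomic_eval (by omega) ha.ne').trans_le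
      (Nat.le_of_dvd (by positivity) hdvd)
  have p3 : 3 ≤ p := by omega
  have hn165 : n < 165 := by
    by_contra! hn'
    have h1 := cube_le_totient n
    have h2 : n ^ 3 ≤ 16 * n.totient ^ 4 := h1.trans (Nat.mul_le_mul_right _ (by
      split_ifs <;> norm_num))
    have h3 : 2 ^ n.totient < 48 * n.totient ^ 4 :=
      ((Nat.pow_le_pow_left (by omega) _).trans_lt hlt).trans_le (by
        have : 165 * n ^ 2 ≤ n ^ 3 := by rw [pow_succ n 2, mul_comm]; exact Nat.mul_le_mul_left _ hn'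
        nlinarith)
    have h4 : ∀ t, 24 ≤ t → 48 * t ^ 4 ≤ 2 ^ t := fun t ht => by
      induction t, ht using Nat.le_induction with
      | base => norm_num
      | succ t ht ih =>
        have : (t + 1) ^ 4 ≤ 2 * t ^ 4 := by
          obtain ⟨u, rfl⟩ := Nat.exists_eq_add_of_le ht
          nlinarith [Nat.zero_le u, Nat.zero_le (u ^ 2), Nat.zero_le (u ^ 3), Nat.zero_le (u ^ 4)]
        rw [pow_succ 2]; omega
    have h5 : n.totient ≤ 23 := by by_contra! h5; have := h4 _ h5; omega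
    have h6 := Nat.pow_le_pow_left h5 4
    have h7 := Nat.pow_le_pow_left hn' 3
    omega
  have h1 := nt_check1 n hn165 hn
  have h2 := nt_check2 n hn165
  obtain ⟨k, rfl⟩ := hp.odd_of_ne_two hp2
  have hk : k < 12 := by
    by_contra! hk
    have := Nat.pow_le_pow_left (show 24 ≤ 2 * k + 1 - 1 by omega) n.totient
    omega
  have := h2 k hk
  rw [ntChk, cyc_eq ha n n (by omega) le_rfl, decide_eq_true hn, decide_eq_true (show 0 < k by omega),
    decide_eq_true (show (2 * k) ^ n.totient < _ from hlt), decide_eq_true (Nat.mod_eq_zero_of_dvd hdvd)]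
    at this
  simp only [Bool.and_self, Bool.not_true, Bool.false_or, decide_eq_true_eq, List.mem_cons,
    Prod.mk.injEq, List.not_mem_nil, or_false] at this
  omega

theorem nt_two {n : ℕ} (hn : 2 ≤ n) (h6 : n ≠ 6) :
    ∃ r : ℕ, r.Prime ∧ orderOf ((2 : ℕ) : ZMod r) = n := by
  have o3 : orderOf ((2 : ℕ) : ZMod 3) = 2 := by
    haveI : Fact (Nat.Prime 2) := ⟨Nat.prime_two⟩
    exact orderOf_eq_prime (by decide) (by decide)
  obtain rfl | hn := hn.eq_or_lt
  · exact ⟨3, Nat.prime_three, o3⟩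
  by_contra! hc
  have h1 : 1 < cv n 2 := by
    have := sub_one_pow_totient_lt_natAbs_cyclotomic_eval (n := n) (q := 2) (by omega) (by omega)
    rwa [show 2 - 1 = 1 from rfl, one_pow] at this
  obtain ⟨l, hl, hld⟩ := Nat.exists_prime_and_dvd h1.ne'
  have key : ∀ s t, s.Prime → t.Prime → s ∣ cv n 2 → t ∣ cv n 2 → t ≤ s := by
    intro s t hs ht h1 h2
    obtain ⟨k, e, hd⟩ := cv_prime one_lt_two (by omega) hs h1
    have h3 := (cv_sq one_lt_two hn ht h2 (hc t ht)).1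
    rw [e] at h3
    rcases ht.dvd_mul.1 h3 with h4 | h4
    · exact Nat.le_of_dvd hs.pos (ht.dvd_of_dvd_pow h4)
    · have := Nat.le_of_dvd (by have := hs.two_le; omega) (h4.trans hd)
      omega
  obtain ⟨⟨m, rfl⟩, hsq⟩ := cv_sq one_lt_two hn hl hld (hc l hl)
  have hle : cv (l * m) 2 ≤ l := by
    refine Nat.le_of_dvd hl.pos ((Nat.dvd_iff_prime_pow_dvd_dvd _ _).2 fun s k hs hk => ?_)
    obtain _ | k := k
    · simp
    obtain rfl : s = l := le_antisymm (key _ _ hl hs hld ((dvd_pow_self s (by omega)).trans hk))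
      (key _ _ hs hl ((dvd_pow_self s (by omega)).trans hk) hld)
    obtain _ | k := k
    · simp
    · exact (hsq ((pow_dvd_pow s (by omega)).trans hk)).elim
  have hm : 0 < m := Nat.pos_of_ne_zero fun h0 => by rw [h0] at hn; omega
  have hφ := Nat.totient_pos.2 hm
  have h2l : 1 < 2 ^ l := Nat.one_lt_two_pow hl.ne_zero
  by_cases hlm : l ∣ m
  · have e := congrArg (eval (2 : ℤ)) (cyclotomic_expand_eq_cyclotomic hl hlm ℤ)
    rw [expand_eval, mul_comm] at e
    have h3 := sub_one_lt_natAbs_cyclotomic_eval (n := m) (q := 2 ^ l)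
      (hl.one_lt.trans_le (Nat.le_of_dvd hm hlm)) h2l.ne'
    push_cast at h3
    rw [e] at h3
    have h4 : l < 2 ^ l := Nat.lt_two_pow_self
    have : cv (l * m) 2 = (eval 2 (cyclotomic (l * m) ℤ)).natAbs := rfl
    omega
  have e := congrArg (eval (2 : ℝ)) (cyclotomic_expand_eq_cyclotomic_mul hl hlm ℝ)
  rw [expand_eval, eval_mul, mul_comm m] at e
  have e1 := cv_cast one_lt_two (l * m) ℝ
  have b1 := sub_one_pow_totient_le_cyclotomic_eval (q := (2 : ℝ) ^ l) (by exact_mod_cast h2l) m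
  have b2 := cyclotomic_eval_le_add_one_pow_totient (q := (2 : ℝ)) one_lt_two m
  push_cast at e1
  rw [e, ← e1] at b1
  have b3 : ((2 : ℝ) ^ l - 1) ^ m.totient ≤ l * 3 ^ m.totient :=
    b1.trans (mul_le_mul (by exact_mod_cast hle) (by norm_num at b2 ⊢; exact b2)
      (cyclotomic_nonneg m one_le_two) (by positivity))
  have b4 : (2 ^ l - 1) ^ m.totient ≤ l * 3 ^ m.totient := by
    have : (((2 ^ l - 1) ^ m.totient : ℕ) : ℝ) ≤ ((l * 3 ^ m.totient : ℕ) : ℝ) := by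
      push_cast [Nat.cast_sub h2l.le]; exact b3
    exact_mod_cast this
  obtain rfl | h2 := eq_or_ne l 2
  · have := hld.trans (cv_dvd one_lt_two (by omega))
    have h3 : 2 ∣ 2 ^ (2 * m) := dvd_pow_self 2 (by omega)
    have h4 : 0 < 2 ^ (2 * m) := by positivity
    omega
  obtain rfl | h3 := eq_or_ne l 3
  · obtain ⟨k, e2, -⟩ := cv_prime one_lt_two (by omega) hl hld
    rw [o3] at e2
    obtain _ | _ | k := k
    · omega
    · omega
    · exact hlm (Nat.dvd_of_mul_dvd_mul_left three_pos ⟨3 ^ k * 2, by rw [e2]; ring⟩)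
  have h5 : ∀ t, 5 ≤ t → 3 * t + 1 < 2 ^ t := fun t ht => by
    induction t, ht using Nat.le_induction with
    | base => norm_num
    | succ t ht ih => rw [pow_succ 2]; omega
  have h7 := h5 l (hl.five_le_of_ne_two_of_ne_three h2 h3)
  have h8 : (3 * l) ^ m.totient < (2 ^ l - 1) ^ m.totient := Nat.pow_lt_pow_left (by omega) hφ.ne'
  have h9 : l ≤ l ^ m.totient := Nat.le_self_pow hφ.ne' l
  rw [mul_pow] at h8
  nlinarith [pow_pos (show 0 < 3 by norm_num) m.totient]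

end Cfsg.Agent.TR
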