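import Cfsg.Agent.Lib.TR.Spec
import Cfsg.Agent.Lib.TR.NT
import Cfsg.Agent.Lib.FT.Main
import Cfsg.Agent.Lib.FT.PF01a

/-! # Characteristic two -/

set_option autoImplicit false
set_option linter.unusedSectionVars false

namespace Cfsg.Agent.TR

open Subgroup Cfsg.Agent.H6 Cfsg.Agent.FT
open scoped commutatorElement ComplexConjugate Classical

variable {X : Type*} [Group X] [Finite X] {p n r s : ℕ} {V G A D K L M N U Y : Subgroup X}
  {χ ψ ω l : X → ℂ} {g v x y z : X}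

theorem card_modEq_inf_cent' (hr : r.Prime) (hY : IsPGroup r Y) (hn : Y ≤ 𝒩(K)) :
    Nat.card K ≡ Nat.card (K ⊓ 𝒞(Y) : Subgroup X) [MOD r] := by
  haveI := Fact.mk hr
  letI : MulAction Y K :=
    { smul := fun y k => ⟨y * k * y⁻¹, H6.conj_mem_of_mem_normalizer (hn y.2) k.2⟩
      one_smul := fun k => Subtype.ext (by change ((1 : Y) : X) * k * _ = k; simp)
      mul_smul := fun a b k => Subtype.ext (by
        change ((a * b : Y) : X) * k * _ = a * (b * k * _) * _; simp [mul_assoc]) }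
  rw [show Nat.card (K ⊓ 𝒞(Y) : Subgroup X) = Nat.card (MulAction.fixedPoints Y K) from
    Nat.card_congr
      { toFun := fun x => ⟨⟨x, x.2.1⟩, fun y => Subtype.ext
          (mul_inv_eq_iff_eq_mul.2 (mem_cent.1 x.2.2 y y.2))⟩
        invFun := fun x => ⟨x.1, x.1.2, mem_cent.2 fun y hy =>
          mul_inv_eq_iff_eq_mul.1 (congrArg Subtype.val (x.2 ⟨y, hy⟩))⟩
        left_inv := fun _ => rfl
        right_inv := fun _ => rfl }]
  exact hY.card_modEq_card_fixedPoints K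

theorem le_Op_of_cent (hs : Group.IsSolvable G) (hr : r.Prime) (hY : Y ≤ G) (hp : IsPGroup r Y)
    (h : ∀ s : ℕ, s.Prime → Op s G ≤ 𝒞(Y)) : Y ≤ Op r G :=
  le_Op_of_le_fit hr hp ((le_inf hY (cent_comm.1 (fit_le_of_forall_Op h))).trans (cent_fit_le hs))

theorem orderOf_two_seven : orderOf ((2 : ℕ) : ZMod 7) = 3 :=
  haveI := Fact.mk Nat.prime_three
  orderOf_eq_prime (by decide) (by decide)

theorem St.even_six (h : St 2 6 V G χ) : Gam V G := by
  have ho : Odd (Nat.card G) := Nat.odd_iff.2 (by have := h.cop; omega)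
  have hs : Group.IsSolvable G := isSolvable_of_odd ho
  have h63 : 63 ∣ Nat.card G := h.sub_one_dvd
  have p7 : Nat.Prime 7 := by norm_num
  have hZ : ∀ s : ℕ, s.Prime → Op s G ≠ ⊥ → NormalIn (Zc (Op s G)) G ∧ Zc (Op s G) ≠ ⊥ ∧
      SemiReg V (Zc (Op s G)) ∧ Nat.card (Zc (Op s G)) ∣ 63 := fun s hs h1 => by
    haveI := Fact.mk hs
    have hn : NormalIn (Zc (Op s G)) G := (core_normal _ G).inf_centralizer (core_normal _ G).2
    have hr := h.semiReg hn (Zc_comm _)
    refine ⟨hn, Zc_ne_bot (nil_of_pgroup (Op_pgroup hs G)) h1, hr, ?_⟩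
    have := hr.card_dvd (hn.1.trans h.nV)
    rwa [h.cardV] at this
  by_cases h7 : Op 7 G = ⊥
  · obtain ⟨Y, hY, hc⟩ := exists_card_eq_prime p7 ((by norm_num : 7 ∣ 63).trans h63)
    have hp := isPGroup_of_card_eq hc
    refine (ne_bot_of_card_prime (hc ▸ p7) (le_bot_iff.1 (h7 ▸ le_Op_of_cent hs p7 hY hp
      fun s hs => ?_))).elim
    by_cases h1 : Op s G = ⊥
    · rw [h1]; exact bot_le
    haveI := Fact.mk hs
    obtain ⟨-, h2, -, h3⟩ := hZ s hs h1
    have h4 : s ∣ 3 ^ 2 * 7 :=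
      (H9.dvd_card_of_ne_bot ((Op_pgroup hs G).to_le inf_le_left) h2).trans h3
    rcases hs.dvd_mul.1 h4 with h5 | h5
    swap
    · exact (h1 ((Nat.prime_dvd_prime_iff_eq hs p7).1 h5 ▸ h7)).elim
    obtain rfl := (Nat.prime_dvd_prime_iff_eq hs Nat.prime_three).1 (hs.dvd_of_dvd_pow h5)
    obtain ⟨a, ha⟩ := H9.exists_card_eq_pow (Op_pgroup hs G)
    obtain ⟨c, hc'⟩ := H9.exists_card_eq_pow ((Op_pgroup hs G).to_le (inf_le_left (b := 𝒞(Y))))
    have h6 := card_modEq_inf_cent' p7 hp (hY.trans (core_normal {3} G).2)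
    have h8 : 3 ^ c ≤ 3 ^ a := ha ▸ hc' ▸ card_le_of_le inf_le_left
    have h9 : 3 ^ a ∣ ∏ i : Fin 6, (2 ^ 6 - 2 ^ (i : ℕ)) :=
      (ha ▸ card_dvd_of_le (core_le _ G)).trans h.card_dvd_GL
    have a4 : a ≤ 4 := by
      by_contra! h10
      exact absurd ((pow_dvd_pow 3 h10).trans h9) (by decide)
    rw [ha, hc'] at h6
    have ca := (Nat.pow_le_pow_iff_right (by norm_num)).1 h8
    refine inf_eq_left.1 (eq_of_le_of_card_le inf_le_left (le_of_eq ?_))
    rw [ha, hc']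
    interval_cases a <;> interval_cases c <;> first | rfl | exact absurd h6 (by decide)
  haveI := Fact.mk p7
  obtain ⟨hn, h1, hr, hd⟩ := hZ 7 p7 h7
  generalize hA : Zc (Op 7 G) = A at hn h1 hr hd
  have hc : Nat.card A = 7 := by
    obtain ⟨k, hk⟩ := H9.exists_card_eq_pow (hA ▸ (Op_pgroup p7 G).to_le inf_le_left : IsPGroup 7 A)
    obtain _ | _ | k := k
    · exact (h1 (card_eq_one.1 hk)).elim
    · simpa using hk
    · exact absurd ((pow_dvd_pow 7 (by omega : 2 ≤ k + 1 + 1)).trans (hk ▸ hd)) (by decide)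
  have hAc := cyclic_of_card_prime (hc ▸ p7)
  have hL : NormalIn (G ⊓ 𝒞(A)) G := (NormalIn.refl G).inf_centralizer hn.2
  have hm : ∀ l ∈ Irr A, mult χ A l ≤ 2 := fun l hl => by
    by_cases e : l = cf1 A
    · have := h.mult_cf1 hn.1
      rw [hr.cent le_rfl h1, card_bot, eq_comm, Nat.pow_eq_one] at this
      rw [e]; omega
    · have := h.mult_le hn.1 p7 hc hl e
      rw [orderOf_two_seven] at this
      omega
  have hLc : IsMulCommutative (G ⊓ 𝒞(A) : Subgroup X) :=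
    comm_of_lin h.ch h.ker inf_le_left fun ψ hψ h0 => by
      obtain ⟨l, hl, h2⟩ := deg_le_mult h.ch inf_le_left hn.1 (comm_of_cyclic hAc) inf_le_right hψ h0
      have h3 := hm l hl
      have h4 := Irr_deg_pos hψ
      have h5 := Nat.odd_iff.1 (ho.of_dvd_nat ((deg_dvd_card hψ).trans (card_dvd_of_le inf_le_left)))
      omega
  have h21 : 21 ∣ Nat.card (G ⊓ 𝒞(A) : Subgroup X) := by
    have e := relIndex_cent_dvd_totient hAc hn.2
    rw [hc, Nat.totient_prime p7] at e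
    have e2 : Nat.card (G ⊓ 𝒞(A) : Subgroup X) * (𝒞(A)).relIndex G = Nat.card G := by
      rw [← inf_relIndex_left]; exact H1.card_mul_relIndex inf_le_left
    have e3 := Nat.odd_iff.1 (ho.of_dvd_nat (Dvd.intro_left _ e2))
    have e4 := Nat.le_of_dvd (by norm_num) e
    generalize (𝒞(A)).relIndex G = i at e e2 e3 e4
    interval_cases i <;> omega
  refine ⟨_, hL, hLc, h.irred_of_card (h.semiReg hL hLc) fun d h2 h3 h4 => ?_⟩
  have := h21.trans h4
  interval_cases d <;> omega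

theorem St.even (h : St 2 n V G χ) (hn : 2 ≤ n) : Gam V G := by
  obtain rfl | h6 := eq_or_ne n 6
  · exact h.even_six
  by_contra hG
  have ho : Odd (Nat.card G) := Nat.odd_iff.2 (by have := h.cop; omega)
  have hs : Group.IsSolvable G := isSolvable_of_odd ho
  obtain ⟨r, hr, hor⟩ := nt_two hn h6
  have hd : r ∣ 2 ^ n - 1 := by
    rw [← ZMod.natCast_eq_zero_iff, Nat.cast_sub Nat.one_le_two_pow, Nat.cast_pow, ← hor,
      pow_orderOf_eq_one, Nat.cast_one, sub_self]
  obtain ⟨Y, hY, hc⟩ := exists_card_eq_prime hr (hd.trans h.sub_one_dvd)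
  have hp := isPGroup_of_card_eq hc
  have h0 := h.eq_bot_of_ord hG hr hor (core_normal _ G) (Op_pgroup hr G)
  refine ne_bot_of_card_prime (hc ▸ hr) (le_bot_iff.1 (h0 ▸ le_Op_of_cent hs hr hY hp
    fun s hs' => ?_))
  obtain rfl | hne := eq_or_ne s r
  · exact h0.le.trans bot_le
  haveI := Fact.mk hs'
  obtain ⟨a, ha⟩ := H9.exists_card_eq_pow (Op_pgroup hs' G)
  have hcop : (Nat.card (Op s G)).Coprime (Nat.card Y) := by
    rw [ha, hc]; exact ((Nat.coprime_primes hs' hr).2 hne).pow_left _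
  have hle : Op s G ⊔ Y ≤ G := sup_le (core_le _ G) hY
  have h1 := odd_prime_sdprod_abelem_cent1 (sol_of_le hs hle) (ho.of_dvd_nat (card_dvd_of_le hle))
    (SDP.of_norm (hY.trans (core_normal _ G).2) (inf_eq_bot_of_coprime' hcop)) hcop (hc ▸ hr)
    Nat.prime_two h.hV (hle.trans h.nV) (fun e => h.cop (e.trans (card_dvd_of_le hle)))
    (h.semiReg_of_ord hY hr hc hor).2.1
  refine cent_comm.1 (commutator_eq_bot_iff.1 (le_bot_iff.1 (h.ff ▸ le_inf ?_ h1)))
  exact (commutator_le_right (hY.trans (core_normal _ G).2)).trans (core_le _ G)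

end Cfsg.Agent.TR
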