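import Cfsg.Agent.Lib.TR.Spec
import Cfsg.Agent.Lib.TR.B0

/-! # Linear groups of small degree with a Sylow subgroup of prime order -/

set_option autoImplicit false
set_option linter.unusedSectionVars false

namespace Cfsg.Agent.TR

open Subgroup Cfsg.Agent.H6 Cfsg.Agent.FT
open scoped commutatorElement ComplexConjugate Classical

variable {X : Type*} [Group X] [Finite X] {p n r s : ℕ} {V G A D K L M N U Y : Subgroup X}
  {χ ψ ω l : X → ℂ} {g v x y z : X}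

theorem dp_bounds {C : Subgroup X} (h : DP Y D C) (hc : IsMulCommutative Y) (hχ : IsChar L χ)
    (hC : C ≤ L) : ∃ a T : ℕ, ⟪χ, χ⟫[C] = a ∧ ⟪χ, χ⟫[D] = T ∧ (spt χ Y).card ≤ a ∧
      T ≤ (spt χ Y).card * a := by
  let e := fun a b : X → ℂ => mult χ C (a * b)
  have hx : ∀ H ≤ C, ∀ l, ⟪χ, l⟫[H] =
      ∑ a ∈ IrrK C D, ∑ b ∈ IrrK C Y, (e a b : ℂ) * ⟪a * b, l⟫[H] := fun H hH l => by
    rw [cfdot_eq_sum_mult hχ hC hH, h.sum_Irr]
  have hD : ∀ a ∈ IrrK C D, ∀ b l, ⟪a * b, l⟫[D] = ⟪b, l⟫[D] := fun a ha b l =>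
    cfdot_congr (fun x hx => by
      have := (isLin_of_comm (fun _ ha _ hb => comm_mul hc ha hb) (h.symm.sdp.Res_mem_Irr ha)).2
      rw [Res_one] at this
      rw [Pi.mul_apply, cfker_apply ((mem_IrrK.1 ha).2 hx), this, one_mul]) fun _ _ => rfl
  have hY : ∀ b ∈ IrrK C Y, ∀ a l, ⟪a * b, l⟫[Y] = deg b * ⟪a, l⟫[Y] := fun b hb a l => by
    rw [← cfdot_smul_left]
    exact cfdot_congr (fun x hx => by
      rw [Pi.mul_apply, cfker_apply ((mem_IrrK.1 hb).2 hx), Pi.smul_apply, smul_eq_mul,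
        Irr_deg_cast (mem_IrrK.1 hb).1, mul_comm]) fun _ _ => rfl
  have h1 : ∀ b ∈ IrrK C Y, ⟪χ, b⟫[D] = (∑ a ∈ IrrK C D, e a b : ℕ) := fun b hb => by
    rw [hx D h.right_le, Nat.cast_sum]
    refine Finset.sum_congr rfl fun a ha => ?_
    rw [Finset.sum_congr rfl fun b' hb' => by
      rw [hD a ha, cfdot_of_le_cfker h.sdp (mem_IrrK.1 hb').2 (mem_IrrK.1 hb).2,
        cfdot_Irr (mem_IrrK.1 hb').1 (mem_IrrK.1 hb).1]]
    simp [hb]
  have h4 : ∀ a ∈ IrrK C D, mult χ Y (Res Y a) = ∑ b ∈ IrrK C Y, e a b * deg b := fun a ha => by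
    refine Nat.cast_injective (R := ℂ) ?_
    rw [mult_cast hχ (h.left_le.trans hC) (h.symm.sdp.Res_mem_Irr ha), cfdot_Res_right,
      hx Y h.left_le, Finset.sum_comm, Nat.cast_sum]
    refine Finset.sum_congr rfl fun b hb => ?_
    rw [Finset.sum_congr rfl fun a' ha' => by
      rw [hY b hb, cfdot_of_le_cfker h.symm.sdp (mem_IrrK.1 ha').2 (mem_IrrK.1 ha).2,
        cfdot_Irr (mem_IrrK.1 ha').1 (mem_IrrK.1 ha).1]]
    simp [ha]
  let S := (IrrK C D).filter fun a => ∃ b ∈ IrrK C Y, e a b ≠ 0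
  have h5 : ∀ a ∈ IrrK C D, mult χ Y (Res Y a) ≠ 0 ↔ a ∈ S := fun a ha => by
    rw [h4 a ha, Ne, Finset.sum_eq_zero_iff, Finset.mem_filter, and_iff_right ha]
    push Not
    exact exists_congr fun b => and_congr_right fun hb => by
      simp [(Irr_deg_pos (mem_IrrK.1 hb).1).ne']
  have hS : (spt χ Y).card = S.card := by
    rw [← Finset.card_image_of_injOn (h.symm.sdp.Res_injOn.mono
      (Finset.coe_subset.2 (Finset.filter_subset _ _)))]
    congr 1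
    ext l
    rw [mem_spt, Finset.mem_image]
    refine ⟨fun hl => ?_, ?_⟩
    · obtain ⟨a, ha, rfl⟩ := h.symm.sdp.exists_Res_eq hl.1
      exact ⟨a, (h5 a ha).1 hl.2, rfl⟩
    · rintro ⟨a, ha, rfl⟩
      have := (Finset.mem_filter.1 ha).1
      exact ⟨h.symm.sdp.Res_mem_Irr this, (h5 a this).2 ha⟩
  refine ⟨∑ a ∈ IrrK C D, ∑ b ∈ IrrK C Y, e a b ^ 2, ∑ b ∈ IrrK C Y, (∑ a ∈ IrrK C D, e a b) ^ 2,
    ?_, ?_, ?_, ?_⟩
  · rw [hx C le_rfl]
    push_cast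
    refine Finset.sum_congr rfl fun a ha => Finset.sum_congr rfl fun b hb => ?_
    rw [← conj_cfdot, ← mult_cast hχ hC (h.mul_mem_Irr ha hb), map_natCast, sq]
  · rw [hx D h.right_le, Finset.sum_comm, Nat.cast_sum]
    refine Finset.sum_congr rfl fun b hb => ?_
    rw [Finset.sum_congr rfl fun a ha => by rw [hD a ha, ← conj_cfdot, h1 b hb, map_natCast],
      ← Finset.sum_mul]
    push_cast; ring
  · rw [hS, Finset.card_eq_sum_ones]
    refine (Finset.sum_le_sum fun a ha => ?_).trans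
      (Finset.sum_le_sum_of_subset (Finset.filter_subset _ _))
    obtain ⟨b, hb, h0⟩ := (Finset.mem_filter.1 ha).2
    exact (Nat.one_le_iff_ne_zero.2 (pow_ne_zero 2 h0)).trans
      (Finset.single_le_sum (f := fun b => e a b ^ 2) (fun _ _ => Nat.zero_le _) hb)
  · rw [hS, Finset.sum_comm (s := IrrK C D), Finset.mul_sum]
    refine Finset.sum_le_sum fun b hb => ?_
    rw [← Finset.sum_subset (Finset.filter_subset (fun a => ∃ b ∈ IrrK C Y, e a b ≠ 0) _)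
      fun a ha h0 => by_contra fun h' => h0 (Finset.mem_filter.2 ⟨ha, b, hb, h'⟩)]
    exact sq_sum_le_card_mul_sum_sq.trans (Nat.mul_le_mul_left _
      (Finset.sum_le_sum_of_subset (Finset.filter_subset _ _)))

theorem good_or_bad (hr : r.Prime) (hr2 : r ≠ 2) (hc : Nat.card Y = r) (hY : Y ≤ K)
    (hs : ¬ r ^ 2 ∣ Nat.card K) (hD : DP Y D (K ⊓ 𝒞(Y))) (hψ : ψ ∈ Irr K) {a T : ℕ}
    (ha : mult ψ (K ⊓ 𝒞(Y)) (cf1 (K ⊓ 𝒞(Y))) = a) (hT : mult ψ D (cf1 D) = T) :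
    ((r + 1) * a ≤ 2 * T ∧ ((r + 1) * a = 2 * T → Even a ∨ ∃ t, t ∣ Nat.card K ∧ 2 * t + 1 = r)) ∨
      (a = 1 ∧ ∀ u ∈ Y, u ≠ 1 → ψ u = 1) := by
  have h1 := mult_cast (isChar_of_Irr hψ) (inf_le_left (b := 𝒞(Y))) (cf1_mem_Irr _)
  have h2 := mult_cast (isChar_of_Irr hψ) (hD.right_le.trans inf_le_left) (cf1_mem_Irr _)
  rw [ha, cfdot_cf1, sum_fs_compl hD.compl, Finset.sum_comm, ← sum_fs_nt_add, ← hD.card_mul, hc,
    eq_inv_mul_iff_mul_eq₀ (by simp [hr.ne_zero, card_ne_zero])] at h1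
  rw [hT, cfdot_cf1, eq_inv_mul_iff_mul_eq₀ (cardC_ne_zero D)] at h2
  simp only [one_mul, ← h2] at h1
  have h3 := hr.two_le
  rcases b0 hr hr2 hc hY hs hD hψ with h | ⟨h, h'⟩
  · rw [Finset.sum_eq_zero fun u hu => h u (mem_fs.1 hu).1 (mem_nt.1 (mem_fs.1 hu)).2] at h1
    have h4 : r * a = T := by
      have : (Nat.card D : ℂ) * (r * a) = Nat.card D * T := by
        push_cast at h1; linear_combination h1
      exact_mod_cast mul_left_cancel₀ (cardC_ne_zero D) this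
    refine Or.inl ⟨by nlinarith, fun e => Or.inl ?_⟩
    obtain rfl : a = 0 := by nlinarith
    exact Even.zero
  have h4 : (r * a : ℂ) = ∑ u ∈ fs (nt Y), ψ u + T := by
    rw [Finset.sum_congr rfl fun u hu => (Finset.sum_congr rfl fun d hd => h u (mem_fs.1 hu).1
      (mem_nt.1 (mem_fs.1 hu)).2 d (mem_fs.1 hd)).trans (Finset.sum_const _), ← Finset.smul_sum,
      card_fs_subgroup, nsmul_eq_mul] at h1
    refine mul_left_cancel₀ (cardC_ne_zero D) ?_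
    push_cast at h1; linear_combination h1
  rcases h' with h' | h' | ⟨t, h5, h6, h' | h'⟩
  · have h5 := sum_fs_nt_add Y fun _ => (1 : ℂ)
    rw [Finset.sum_congr rfl fun u hu => h' u (mem_fs.1 hu).1 (mem_nt.1 (mem_fs.1 hu)).2] at h4
    rw [Finset.sum_const (s := fs (Y : Set X)), card_fs_subgroup, hc, nsmul_one] at h5
    have h6 : r * a + 1 = r + T := by
      have : (r * a + 1 : ℂ) = r + T := by linear_combination h4 + h5
      exact_mod_cast this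
    rcases lt_trichotomy a 1 with h7 | h7 | h7
    · obtain rfl : a = 0 := by omega
      omega
    · exact Or.inr ⟨h7, h'⟩
    · refine Or.inl ⟨by nlinarith, fun e => Or.inl ?_⟩
      obtain rfl : a = 2 := by nlinarith
      exact even_two
  · have h6 : r * a + r = 1 + T := by
      have : (r * a + r : ℂ) = 1 + T := by linear_combination h4 + h'
      exact_mod_cast this
    exact Or.inl ⟨by nlinarith, fun e => by nlinarith⟩
  · have h7 : r * a = t + T := by rw [h'] at h4; exact_mod_cast h4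
    have h8 := Nat.pos_of_dvd_of_pos h5 Nat.card_pos
    have h9 : 1 ≤ a := Nat.pos_of_ne_zero (by rintro rfl; omega)
    exact Or.inl ⟨by nlinarith, fun e => Or.inr ⟨t, h5, by nlinarith⟩⟩
  · have h7 : r * a + t = T := by
      have : (r * a + t : ℂ) = T := by linear_combination h4 + h'
      exact_mod_cast this
    have h8 := Nat.pos_of_dvd_of_pos h5 Nat.card_pos
    exact Or.inl ⟨by nlinarith, fun e => by nlinarith⟩

theorem bad_mult (hc : IsMulCommutative Y) (hY : Y ≤ K) (hψ : ψ ∈ Irr K)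
    (h : ∀ u ∈ Y, u ≠ 1 → ψ u = 1) (hl : l ∈ Irr Y) (h1 : l ≠ cf1 Y) :
    Nat.card Y * mult ψ Y l + 1 = deg ψ := by
  have h2 := mult_cast (isChar_of_Irr hψ) hY hl
  have h3 := congrArg conj (sum_Irr_eq_zero hl h1)
  rw [cfdot, eq_inv_mul_iff_mul_eq₀ (cardC_ne_zero Y), ← sum_fs_nt_add, Finset.sum_congr rfl
    fun u hu => by rw [h u (mem_fs.1 hu).1 (mem_nt.1 (mem_fs.1 hu)).2, one_mul]] at h2
  rw [map_sum, ← sum_fs_nt_add, map_zero] at h3
  rw [(isLin_of_comm (fun _ ha _ hb => comm_mul hc ha hb) hl).2, map_one] at h2 h3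
  refine Nat.cast_injective (R := ℂ) ?_
  rw [Irr_deg_cast hψ]
  push_cast
  linear_combination h2 + h3

theorem card_le_of_all (hc : IsMulCommutative Y) (hY : Y ≤ K) (hχ : IsChar K χ)
    (h : ∀ l ∈ Irr Y, l ≠ cf1 Y → ⟪χ * star χ, l⟫[Y] ≠ 0) :
    Nat.card Y - 1 ≤ (spt χ Y).card * (spt χ Y).card - (spt χ Y).card := by
  have hL := fun l => isLin_of_comm (χ := l) (fun _ ha _ hb => comm_mul hc ha hb)
  rw [← Finset.offDiag_card, ← card_Irr_of_comm (fun _ ha _ hb => comm_mul hc ha hb),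
    ← Finset.card_erase_of_mem (cf1_mem_Irr Y)]
  refine (Finset.card_le_card fun l hl => ?_).trans
    (Finset.card_image_le (f := fun q => q.1 * star q.2))
  obtain ⟨h1, hl⟩ := Finset.mem_erase.1 hl
  have h2 := h l hl h1
  rw [cfdot_mul_left, star_star, ← cfdot_Res_left] at h2
  obtain ⟨μ, hμ, h3, h4⟩ := exists_common_Irr (hχ.res hY).mem_CF h2
  rw [cfdot_mul_left] at h4
  have h5 := ((hL l hl).star.mul (hL μ hμ)).mem_Irr
  have h6 : μ * star (star l * μ) = l := by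
    rw [star_mul, star_star, ← mul_assoc, (hL μ hμ).mul_star, cf1_mul_of_supp (Irr_supp hl)]
  refine Finset.mem_image.2 ⟨(μ, star l * μ), Finset.mem_offDiag.2 ⟨mem_spt.2 ⟨hμ,
    (mult_ne_zero hχ hY hμ).2 (by simpa using h3)⟩, mem_spt.2 ⟨h5, (mult_ne_zero hχ hY h5).2 h4⟩,
    fun e => h1 ?_⟩, h6⟩
  rw [← h6, ← show μ = star l * μ from e, (hL μ hμ).mul_star]

theorem mult_cf1_le (h : IsChar L χ) (hK : K ≤ L) : mult χ K (cf1 K) ≤ deg χ := by
  rw [deg_eq_sum h hK]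
  exact (by rw [(isLin_cf1 K).deg_eq, mul_one] : _ = _).ge.trans
    (Finset.single_le_sum (f := fun ψ => mult χ K ψ * deg ψ) (fun _ _ => Nat.zero_le _)
      (cf1_mem_Irr K))

theorem ftc (hr : r.Prime) (hr2 : r ≠ 2) (hc : Nat.card Y = r) (hY : Y ≤ K)
    (hs : ¬ r ^ 2 ∣ Nat.card K) (hg : ∀ N, NormalIn N K → Y ≤ N → N = K) (hχ : χ ∈ Irr K)
    (h1 : deg χ ≠ 1) {m : ℕ} (hm : (spt χ Y).card = m) :
    r < 2 * m + 1 ∨ (2 * m + 1 = r ∧ (Odd m ∨ m ∣ Nat.card K)) ∨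
      (r + m ≤ m ^ 2 + 1 ∧ 2 + (r + 1) * m ≤ 2 * deg χ ^ 2) := by
  have hcm : IsMulCommutative Y := comm_of_cyclic (cyclic_of_card_prime (hc ▸ hr))
  have hX := isChar_of_Irr hχ
  have hφ := hX.mul hX.star
  have hYC : Y ≤ K ⊓ 𝒞(Y) := le_inf hY (comm_iff.1 hcm)
  have hH : Hall {r} Y (K ⊓ 𝒞(Y)) :=
    ((hall_singleton hr).2 (syl_of_card hr hc hY hs)).mono hYC inf_le_left
  have hn : K ⊓ 𝒞(Y) ≤ 𝒩(Y) := inf_le_right.trans cent_le_norm
  obtain ⟨D, hD'⟩ := hH.exists_compl hn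
  have hD : DP Y D (K ⊓ 𝒞(Y)) := ⟨hH.compl hD', fun a ha b hb => (hD'.le hb).2 a ha⟩
  have hDK : D ≤ K := hD.right_le.trans inf_le_left
  have hdot : ∀ H ≤ K, (mult (χ * star χ) H (cf1 H) : ℂ) = ⟪χ, χ⟫[H] := fun H hH => by
    rw [mult_cast hφ hH (cf1_mem_Irr H), cfdot_mul_left, star_star, mul_comm, cf1_mul,
      cfdot_Res_right]
  have hn1 : mult (χ * star χ) K (cf1 K) = 1 := by
    have := hdot K le_rfl
    rw [cfdot_Irr_self hχ] at this
    exact_mod_cast this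
  have hdg : deg (χ * star χ) = deg χ ^ 2 := deg_eq_of_apply_one (by
    rw [Pi.mul_apply, hX.star_one, ← hX.deg_cast, Nat.cast_pow, sq])
  have hm2 : 2 ≤ m := by
    by_contra h'
    obtain ⟨l, hl, h0⟩ := hX.exists_Irr_under (Irr_ne_zero hχ) hY
    have h2 := eq_smul_of_unique_const (hX.res hY).mem_CF hl fun ψ hψ h3 =>
      Finset.card_le_one.1 (show (spt χ Y).card ≤ 1 by omega) _ (mem_spt.2 ⟨hψ,
        (mult_ne_zero hX hY hψ).2 (by simpa using h3)⟩) _ (mem_spt.2 ⟨hl,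
        (mult_ne_zero hX hY hl).2 h0⟩)
    have hL := isLin_of_comm (fun _ ha _ hb => comm_mul hcm ha hb) hl
    have h3 : ∀ u ∈ Y, (χ * star χ) u = ⟪χ, l⟫[Y] * conj ⟪χ, l⟫[Y] := fun u hu => by
      have := congrFun h2 u
      rw [Res_of_mem hu, cfdot_Res_left, Pi.smul_apply, smul_eq_mul] at this
      rw [Pi.mul_apply, Pi.star_apply, this, Complex.star_def, map_mul, mul_mul_mul_comm,
        hL.mul_conj hu, mul_one]
    have h4 := hg _ (cfker_normal hφ.inv) ((hφ.le_cfker_iff hY).2 fun u hu => by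
      rw [h3 u hu, h3 1 Y.one_mem])
    have h5 := mult_cast hφ le_rfl (cf1_mem_Irr K)
    rw [hn1, ← cfdot_Res_left, (hφ.le_cfker_iff_Res le_rfl).1 h4.ge, cfdot_smul_left,
      cfdot_cf1_cf1, mul_one, ← hφ.deg_cast, hdg, Nat.cast_inj, eq_comm, Nat.pow_eq_one] at h5
    omega
  obtain ⟨a, T, ha, hT, h2, h3⟩ := dp_bounds hD hcm hX inf_le_left
  rw [← hdot _ inf_le_left, Nat.cast_inj] at ha
  rw [← hdot _ hDK, Nat.cast_inj] at hT
  rw [hm] at h2 h3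
  have hsum : ∀ H ≤ K, mult (χ * star χ) H (cf1 H) = ∑ ψ ∈ (Irr K).erase (cf1 K),
      mult (χ * star χ) K ψ * mult ψ H (cf1 H) + 1 := fun H hH => by
    have := mult_cast (isChar_cf1 K) hH (cf1_mem_Irr H)
    rw [← cfdot_Res_left, Res_cf1 hH, cfdot_cf1_cf1, Nat.cast_eq_one] at this
    rw [mult_eq_sum hφ le_rfl hH (cf1_mem_Irr H), ← Finset.sum_erase_add _ _ (cf1_mem_Irr K), hn1,
      this]
  rw [hsum _ inf_le_left] at ha
  rw [hsum _ hDK] at hT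
  have hdeg := deg_eq_sum hφ le_rfl
  rw [← Finset.sum_erase_add _ _ (cf1_mem_Irr K), hn1, (isLin_cf1 K).deg_eq, hdg] at hdeg
  have hgb := fun ψ (hψ : ψ ∈ (Irr K).erase (cf1 K)) =>
    good_or_bad hr hr2 hc hY hs hD (Finset.mem_of_mem_erase hψ) rfl rfl
  set N := mult (χ * star χ) K
  by_cases hb : ∃ ψ ∈ (Irr K).erase (cf1 K), N ψ ≠ 0 ∧
    mult ψ (K ⊓ 𝒞(Y)) (cf1 (K ⊓ 𝒞(Y))) = 1 ∧ ∀ u ∈ Y, u ≠ 1 → ψ u = 1
  · have hbad : ∀ ψ ∈ (Irr K).erase (cf1 K), (∀ u ∈ Y, u ≠ 1 → ψ u = 1) → ∀ l ∈ Irr Y,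
        l ≠ cf1 Y → mult ψ Y l ≠ 0 := fun ψ hψ h4 l hl h5 h6 => by
      obtain ⟨h7, hψ⟩ := Finset.mem_erase.1 hψ
      have h8 := bad_mult hcm hY hψ h4 hl h5
      rw [h6, mul_zero, zero_add] at h8
      have hL := isLin_of_deg (isChar_of_Irr hψ) h8.symm
      exact h7 ((Irr_eq_cf1_iff hψ).1 (hg _ (cfker_normal hL.1.inv) fun u hu => hL.mem_cfker.2
        ⟨hY hu, if e : u = 1 then e ▸ hL.2 else h4 u hu e⟩).ge)
    obtain ⟨l, hl, h5⟩ : ∃ l ∈ Irr Y, l ≠ cf1 Y := Finset.exists_mem_ne (by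
      rw [card_Irr_of_comm (fun _ ha _ hb => comm_mul hcm ha hb), hc]; exact hr.one_lt) _
    have hdb : ∀ ψ ∈ (Irr K).erase (cf1 K), (∀ u ∈ Y, u ≠ 1 → ψ u = 1) → r + 1 ≤ deg ψ :=
      fun ψ hψ h4 => by
        rw [← bad_mult hcm hY (Finset.mem_of_mem_erase hψ) h4 hl h5, hc]
        exact Nat.succ_le_succ (Nat.le_mul_of_pos_right _ (Nat.pos_of_ne_zero
          (hbad ψ hψ h4 l hl h5)))
    obtain ⟨ψ₀, h6, h7, h8', h8⟩ := hb
    have h9 := card_le_of_all hcm hY hX fun l hl h5 => (mult_ne_zero hφ hY hl).1 (by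
      have := mult_le_of_const hφ le_rfl hY (Finset.mem_of_mem_erase h6)
        ((mult_ne_zero hφ le_rfl (Finset.mem_of_mem_erase h6)).1 h7) hl
      have := hbad ψ₀ h6 h8 l hl h5
      omega)
    rw [hc, hm] at h9
    have h10 : ∑ ψ ∈ (Irr K).erase (cf1 K), ((r + 1) * (N ψ * mult ψ (K ⊓ 𝒞(Y)) (cf1 (K ⊓ 𝒞(Y)))) +
        if ψ = ψ₀ then r + 1 else 0) ≤ ∑ ψ ∈ (Irr K).erase (cf1 K), 2 * (N ψ * deg ψ) := by
      refine Finset.sum_le_sum fun ψ hψ => ?_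
      have h11 := mult_cf1_le (isChar_of_Irr (Finset.mem_of_mem_erase hψ)) hDK
      have h12 : mult ψ (K ⊓ 𝒞(Y)) (cf1 (K ⊓ 𝒞(Y))) = 1 → r + 1 ≤ deg ψ →
          (r + 1) * (N ψ * mult ψ (K ⊓ 𝒞(Y)) (cf1 (K ⊓ 𝒞(Y)))) + N ψ * (r + 1) ≤
            2 * (N ψ * deg ψ) := fun e h => by rw [e]; nlinarith
      split_ifs with e
      · subst e
        have h13 := h12 h8' (hdb ψ hψ h8)
        have h14 := Nat.le_mul_of_pos_left (r + 1) (Nat.pos_of_ne_zero h7)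
        omega
      · rcases hgb ψ hψ with h | h
        · nlinarith [h.1]
        · have := h12 h.1 (hdb ψ hψ h.2); omega
    rw [Finset.sum_add_distrib, ← Finset.mul_sum, ← Finset.mul_sum, Finset.sum_ite_eq', if_pos h6]
      at h10
    have := hr.two_le
    have : m ≤ m * m := Nat.le_mul_self m
    exact Or.inr (Or.inr ⟨by rw [sq]; omega, by nlinarith⟩)
  · have hle : ∀ ψ ∈ (Irr K).erase (cf1 K), (r + 1) * (N ψ * mult ψ (K ⊓ 𝒞(Y)) (cf1 (K ⊓ 𝒞(Y)))) ≤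
        2 * (N ψ * mult ψ D (cf1 D)) := fun ψ hψ => by
      by_cases h0 : N ψ = 0
      · simp [h0]
      · nlinarith [((hgb ψ hψ).resolve_right fun h => hb ⟨ψ, hψ, h0, h⟩).1]
    have h4 := Finset.sum_le_sum hle
    have h5 := (Finset.sum_eq_sum_iff_of_le hle).1
    rw [← Finset.mul_sum, ← Finset.mul_sum] at h4 h5
    by_cases h6 : r < 2 * m + 1
    · exact Or.inl h6
    have h7 : 2 * m + 1 = r := by nlinarith
    have h8 : a = m := by nlinarith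
    refine Or.inr (Or.inl ⟨h7, or_iff_not_imp_right.2 fun h9 => ?_⟩)
    rw [← h8, ← ha]
    refine Even.add_one (Finset.even_sum _ fun ψ hψ => ?_)
    by_cases h0 : N ψ = 0
    · simp [h0]
    have h13 := h5 (by nlinarith) ψ hψ
    rw [mul_left_comm, mul_left_comm 2, mul_right_inj' h0] at h13
    refine (((hgb ψ hψ).resolve_right fun h => hb ⟨ψ, hψ, h0, h⟩).2 h13).elim
      (Even.mul_left · _) ?_
    rintro ⟨t, h14, h15⟩
    exact (h9 (show m = t by omega ▸ h14)).elim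

end Cfsg.Agent.TR
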