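import Cfsg.Agent.Lib.TR.Ppd

/-! # Dimension four over the field with three elements -/

set_option autoImplicit false
set_option linter.unusedSectionVars false

namespace Cfsg.Agent.TR

open Subgroup Cfsg.Agent.H6 Cfsg.Agent.FT
open scoped commutatorElement ComplexConjugate Classical

variable {X : Type*} [Group X] [Finite X] {p n r s : ℕ} {V G A D K L M N U Y : Subgroup X}
  {χ ψ ω l : X → ℂ} {g v x y z : X}

theorem card_modEq_inf_cent (hr : r.Prime) (hY : IsPGroup r Y) (hn : Y ≤ 𝒩(U)) :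
    Nat.card U ≡ Nat.card (U ⊓ 𝒞(Y) : Subgroup X) [MOD r] := by
  have := Fact.mk hr
  let _ := H2.conjAction hn
  refine (hY.card_modEq_card_fixedPoints U).trans ?_
  rw [Nat.card_congr (β := (U ⊓ 𝒞(Y) : Subgroup X))
    { toFun := fun u => ⟨u.1, u.1.2, fun y hy =>
        mul_inv_eq_iff_eq_mul.1 (congrArg Subtype.val (u.2 ⟨y, hy⟩))⟩
      invFun := fun u => ⟨⟨u.1, u.2.1⟩, fun y => Subtype.ext
        (mul_inv_eq_iff_eq_mul.2 (u.2.2 y y.2))⟩
      left_inv := fun _ => rfl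
      right_inv := fun _ => rfl }]

theorem St.four_dvd (h : St 3 4 V G χ) : Nat.card G ∣ 2 ^ 9 * 5 ^ 1 := by
  have h1 : Nat.card G ∣ 2 ^ 9 * 5 ^ 1 * 13 := by
    have h2 := h.card_dvd_GL
    rw [show ∏ i : Fin 4, (3 ^ 4 - 3 ^ (i : ℕ)) = 3 ^ 6 * (2 ^ 9 * 5 ^ 1 * 13) by decide] at h2
    exact (((Nat.prime_three.coprime_iff_not_dvd).2 h.cop).symm.pow_right 6).dvd_of_dvd_mul_left h2
  have h13 : Nat.Prime 13 := by norm_num
  refine ((h13.coprime_iff_not_dvd).2 fun hd => ?_).symm.dvd_of_dvd_mul_right h1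
  obtain ⟨Y, hY, hc⟩ := exists_card_eq_prime h13 hd
  have hs : ¬ 13 ^ 2 ∣ Nat.card G := fun e => absurd (e.trans h1) (by norm_num)
  have hYc := comm_of_cyclic (cyclic_of_card_prime (hc ▸ h13))
  by_cases hn : NormalIn Y G
  · have := (h.semiReg hn hYc).card_dvd (hY.trans h.nV)
    rw [hc, h.cardV] at this
    exact absurd this (by norm_num)
  obtain ⟨K, ψ, k1, k2, -, k4, k5, k6, k7⟩ := exists_nonlin h.ch h.ker h13 hY hc hs hn
  have d1 := deg_le_of_const h.ch k2 k5 k6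
  have d2 := card_spt_le_deg (isChar_of_Irr k5) k1 hYc
  rw [h.dg] at d1
  have := ftc h13 (by norm_num) hc k1 (fun e => hs (e.trans (card_dvd_of_le k2))) k4 k5 k7 rfl
  generalize (spt ψ Y).card = m at *
  generalize deg ψ = d at *
  interval_cases d <;> interval_cases m <;> omega

theorem ord_three_five : orderOf ((3 : ℕ) : ZMod 5) = 4 :=
  (orderOf_eq_iff (by norm_num)).2 ⟨by decide, by decide⟩

theorem fit_le_of_dvd {a : ℕ} (hL : Nat.card L ∣ 2 ^ a * 5 ^ 1) (h2 : Op 2 L ≤ K)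
    (h5 : Op 5 L ≤ K) : fittingOf L ≤ K := by
  refine fit_le_of_forall_Op fun s hs => ?_
  by_cases hd : s ∣ Nat.card L
  · rcases (hs.dvd_mul).1 (hd.trans hL) with e | e
    · rwa [(Nat.prime_dvd_prime_iff_eq hs Nat.prime_two).1 (hs.dvd_of_dvd_pow e)]
    · rwa [(Nat.prime_dvd_prime_iff_eq hs Nat.prime_five).1 (hs.dvd_of_dvd_pow e)]
  · rw [Op, core_eq_bot ((piN_compl_singleton_iff hs).2 hd)]
    exact bot_le

/-- A group of order `2 ^ a * 5` without normal `2`-subgroups. -/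
theorem normal_of_Op_two {a : ℕ} (hL : Nat.card L ∣ 2 ^ a * 5 ^ 1) (h2 : Op 2 L = ⊥) (hY : Y ≤ L)
    (hc : Nat.card Y = 5) : NormalIn Y L ∧ Nat.card L ≤ 20 := by
  have := Fact.mk Nat.prime_five
  have hs := H3.burnside_paqb Nat.prime_two Nat.prime_five hL
  have hF : fittingOf L = Op 5 L :=
    le_antisymm (fit_le_of_dvd hL (h2 ▸ bot_le) le_rfl) (Op_le_fit Nat.prime_five L)
  have h1 := cent_fit_le hs
  have h3 := fit_ne_bot hs fun e => by
    rw [le_bot_iff.1 (hY.trans e.le), card_bot] at hc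
    omega
  rw [hF] at h1 h3
  have h4 : Nat.card (Op 5 L) = 5 := by
    obtain ⟨k, hk⟩ := (Op_pgroup Nat.prime_five L).exists_card_eq
    have h5 := (card_dvd_of_le (core_le {5} L)).trans hL
    rw [hk] at h5
    have h6 := (Nat.Coprime.pow k a (by norm_num : Nat.Coprime 5 2)).dvd_of_dvd_mul_left h5
    have h7 := (Nat.pow_dvd_pow_iff_le_right (by norm_num)).1 h6
    interval_cases k
    · exact absurd (card_eq_one.1 hk) h3
    · exact hk
  have hn : NormalIn (Op 5 L) L := core_normal {5} L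
  have h5 : Y = Op 5 L := eq_of_le_of_card_le ((le_inf hY fun x hx => mem_cent.2 fun z hz =>
    (H9.commute_of_card_prime h4 (IsPGroup.of_card (n := 1) (by rw [hc]; rfl))
      (hY.trans hn.norm) hx hz).symm).trans h1) (by rw [h4, hc])
  refine ⟨h5 ▸ hn, ?_⟩
  have h6 := relIndex_cent_dvd_totient (cyclic_of_card_prime (by rw [h4]; exact Nat.prime_five)) hn.norm
  rw [h4, Nat.totient_prime Nat.prime_five] at h6
  rw [card_eq_relIndex_mul_inf 𝒞(Op 5 L) L]
  exact Nat.mul_le_mul (Nat.le_of_dvd (by norm_num) h6)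
    ((H9.card_le_of_le' (inf_comm _ L ▸ h1)).trans h4.le)

/-- The character vanishes off a central involution group. -/
theorem St.norm_eq (h : St 3 4 V G χ) {Z E : Subgroup X} (hZ : NormalIn Z G) (hc : Nat.card Z = 2)
    (hZE : Z ≤ E) (hE : E ≤ G) (hcomm : ∀ e ∈ E, e ∉ Z → ∃ a ∈ E, ⁅a, e⁆ ∈ Z ∧ ⁅a, e⁆ ≠ 1) :
    (Nat.card E : ℝ) * cfnorm E χ = 32 := by
  have h1 : χ 1 = 4 := by rw [← h.ch.deg_cast, h.dg]; rfl
  obtain ⟨z, hz1, hz⟩ : ∃ z, z ≠ 1 ∧ (Z : Set X) = {1, z} := by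
    obtain ⟨z, hz, hu⟩ := (Nat.card_eq_two_iff' (1 : Z)).1 hc
    refine ⟨z, fun e => hz (Subtype.ext e), Set.ext fun x => ⟨fun hx => ?_, ?_⟩⟩
    · by_cases e : x = 1
      · exact Or.inl e
      · exact Or.inr (congrArg Subtype.val (hu ⟨x, hx⟩ fun e' => e (congrArg Subtype.val e')))
    · rintro (rfl | rfl)
      · exact Z.one_mem
      · exact z.2
  have hfs : fs (Z : Set X) = {1, z} := by
    ext x; simp [hz]
  have hzZ : z ∈ Z := by rw [← SetLike.mem_coe, hz]; simp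
  have h2 : χ z = -4 := by
    obtain ⟨d, e1, e2⟩ := h.fx Z hZ.le
    rw [(h.semiReg hZ (comm_of_cyclic (cyclic_of_card_prime (hc ▸ Nat.prime_two)))).cent le_rfl
      (fun e => hz1 (mem_bot.1 (e ▸ hzZ))), card_bot] at e1
    obtain rfl : d = 0 := by simpa using e1.symm
    rw [cfdot_cf1, hfs, Finset.sum_pair hz1.symm, hc, h1] at e2
    push_cast at e2
    linear_combination 2 * e2
  obtain ⟨w, -, hw⟩ := H3.IsCharacter_mul_of_norm_eq h.ch.2 (z := ⟨z, hZ.le hzZ⟩) (by
    change ‖χ z‖ = ‖χ 1‖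
    rw [h1, h2, norm_neg])
  have hw1 : w = -1 := by
    have := hw 1
    change χ (z * 1) = w * χ 1 at this
    rw [mul_one, h1, h2] at this
    linear_combination (-1 / 4) * this
  have h3 : ∀ e ∈ E, e ∉ Z → χ e = 0 := by
    intro e he heZ
    obtain ⟨a, ha, k1, k2⟩ := hcomm e he heZ
    have k3 : ⁅a, e⁆ = z := by
      rw [← SetLike.mem_coe, hz] at k1
      exact k1.resolve_left k2
    have k4 := hw ⟨e, hE he⟩
    change χ (z * e) = w * χ e at k4
    rw [← k3, commutatorElement_def, inv_mul_cancel_right, h.ch.inv a (hE ha), hw1] at k4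
    linear_combination (1 / 2) * k4
  rw [cfnorm, ← mul_assoc, mul_inv_cancel₀ (cardR_pos E).ne', one_mul,
    ← sum_fs_subset (A := Z) hZE fun e he heZ => by rw [h3 e he heZ]; simp, hfs,
    Finset.sum_pair hz1.symm, h1, h2]
  norm_num

theorem St.card_le_two (h : St p n V G χ) (hA : NormalIn A G) (hc : IsMulCommutative A)
    (h2 : ∀ a ∈ A, a ^ 2 = 1) : Nat.card A ≤ 2 :=
  (elem_cyclic_iff Nat.prime_two ⟨hc, h2⟩).1 (h.cyclic hA.le hc (h.semiReg hA hc))

theorem eq_of_dvd_32 {k : ℕ} (h : k ∣ 32) (h5 : k % 5 = 2) : k = 2 ∨ k = 32 := by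
  have := Nat.le_of_dvd (by norm_num) h
  interval_cases k <;> omega

theorem St.four_struct (h : St 3 4 V G χ) (hG : ¬ Gam V G) (hY : Y ≤ G) (hc : Nat.card Y = 5) :
    Nat.card (Op 2 G) = 32 ∧ Nat.card (Zc (Op 2 G)) = 2 ∧ G ⊓ 𝒞(Op 2 G) = Zc (Op 2 G) ∧
      Op 2 G ⊓ 𝒞(Y) = Zc (Op 2 G) ∧ (Op 2 G).relIndex G ≤ 20 := by
  have := Fact.mk Nat.prime_two
  have hd := h.four_dvd
  have hs := H3.burnside_paqb Nat.prime_two Nat.prime_five hd
  have hQ : NormalIn (Op 2 G) G := core_normal {2} G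
  have hQp := Op_pgroup Nat.prime_two G
  have hYp : IsPGroup 5 Y := IsPGroup.of_card (n := 1) (by rw [hc]; rfl)
  have hY2 : PiG {2}ᶜ Y := (piN_compl_singleton_iff Nat.prime_two).2 (by rw [hc]; norm_num)
  have hF : fittingOf G = Op 2 G := le_antisymm (fit_le_of_dvd hd le_rfl (by
    exact (h.eq_bot_of_ord hG Nat.prime_five ord_three_five (core_normal {5} G)
      (Op_pgroup Nat.prime_five G)).trans_le bot_le)) (Op_le_fit Nat.prime_two G)
  have hcQ := cent_fit_le hs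
  rw [hF] at hcQ
  have hq : Op 2 (quo (Op 2 G) G) = ⊥ := core_quo_core {2} G
  generalize Op 2 G = Q at *
  have hcop : ∀ W, W ≤ Q → (Nat.card W).Coprime (Nat.card Y) := fun W hW =>
    ((piG_singleton Nat.prime_two).2 (hQp.to_le hW)).coprime hY2
  have hYQ : ¬ Y ≤ Q := fun e => by
    have := hcop Y e
    rw [hc] at this
    exact absurd this (by norm_num)
  have hnY := hY.trans hQ.norm
  obtain ⟨k1, k2⟩ := normal_of_Op_two ((card_quo_dvd Q G).trans hd) hq (quo_mono Q hY) (by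
    rw [card_quo hnY, ← inf_relIndex_right, inf_comm,
      H9.inf_eq_bot_of_card_prime Nat.prime_five hc hYQ, relIndex_bot_left, hc])
  rw [card_quo hQ.norm] at k2
  have hM := normalIn_coquo hQ k1
  rw [coquo_quo hnY] at hM
  have hE : NormalIn ⁅Q, Y⁆ G := by
    refine ⟨(commutator_mono hQ.le hY).trans (der_le G), ?_⟩
    rw [sup_comm] at hM
    rw [← (Hall.sup_of_norm (π := {2}ᶜ) hY2 (K := Q)
      (by rw [compl_compl]; exact (piG_singleton Nat.prime_two).2 hQp) (Or.inl hnY)).frattini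
      (sol_of_le hs (sup_le hY hQ.le)) hM]
    exact sup_le (sup_le le_norm_commutator_right le_norm_commutator_left)
      (H1.le_normalizer_commutator (inf_le_left.trans hQ.norm) inf_le_right)
  have hEQ : ⁅Q, Y⁆ ≤ Q := FT.commutator_le_left hnY
  have hE0 : ⁅Q, Y⁆ ≠ ⊥ := fun e =>
    hYQ ((le_inf hY (cent_comm.1 (FT.commutator_eq_bot_iff.1 e))).trans hcQ)
  have hEY := coprime_commGid hnY (hcop Q le_rfl)
  generalize ⁅Q, Y⁆ = E at hE hEQ hE0 hEY
  have hEp := hQp.to_le hEQ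
  obtain ⟨s1, s2, s3⟩ := abelian_charsimple_special Nat.prime_two hEp (hY.trans hE.norm)
    (hcop E hEQ) hEY fun B hB hn hBc => by
      have hBn : NormalIn B G := ⟨hB.trans hE.le, hE.norm.trans hn⟩
      have := relIndex_cent_dvd_pred_of_cyclic Nat.prime_two (hEp.to_le hB)
        (h.cyclic hBn.le hBc (h.semiReg hBn hBc)) hY2 (hY.trans hBn.norm)
      exact relIndex_eq_one.1 (Nat.dvd_one.1 this)
  have hZn : NormalIn (Zc E) G := ⟨inf_le_left.trans hE.le, hE.norm.trans (norm_le_norm_Zc E)⟩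
  have hZ : Nat.card (Zc E) = 2 := by
    have e1 := h.card_le_two hZn (Zc_comm E) fun a ha => by
      have e2 : ⁅E, E⁆ ≤ omegaOne 2 (Zc E) := commutator_le.2 fun x hx y hy => by
        have e3 : ⁅x, y⁆ ∈ Zc E := s2 ▸ commutator_mem_commutator hx hy
        refine H9.mem_omegaOne e3 ?_
        rw [← H9.commutator_pow_left_of_commute (x := x) (y := y) (mem_cent.1 e3.2 x hx) 2,
          commutatorElement_eq_one_iff_mul_comm]
        exact (mem_cent.1 (s1 ▸ H9.pow_mem_Phi hx : x ^ 2 ∈ Zc E).2 y hy).symm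
      exact ((mem_omega_of_comm (Zc_comm E)).1 (e2 (s2 ▸ ha))).2
    have e2 := (one_lt_card_iff_ne_bot _).2 (Zc_ne_bot (nil_of_pgroup hEp) hE0)
    omega
  have hmod : ∀ W, Zc E ≤ W → W ≤ E → Y ≤ 𝒩(W) → Nat.card W % 5 = 2 := fun W w1 w2 w3 => by
    have := card_modEq_inf_cent Nat.prime_five hYp w3
    rwa [le_antisymm ((inf_le_inf_right _ w2).trans s3.le) (le_inf w1 (s3.ge.trans inf_le_right)),
      hZ] at this
  have hN := h.norm_eq hZn hZ inf_le_left hE.le fun e he heZ => by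
    by_contra hno
    push Not at hno
    exact heZ ⟨he, mem_cent.2 fun a ha => commutatorElement_eq_one_iff_mul_comm.1
      (hno a ha (s2 ▸ commutator_mem_commutator ha he))⟩
  have hch := h.ch.res hE.le
  have hN' : cfnorm E (Res E χ) = cfnorm E χ := cfnorm_congr fun x hx => Res_of_mem hx
  have hE32 : Nat.card E = 32 := by
    have e1 := one_le_cfnorm_of_ZIrr hch.mem_ZIrr fun e => by
      rw [← hN', e, cfnorm] at hN
      simp at hN
    have e2 : Nat.card E ≤ 32 := by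
      have : (Nat.card E : ℝ) ≤ 32 := by
        rw [← hN, ← hN']
        exact le_mul_of_one_le_right (cardR_pos E).le e1
      exact_mod_cast this
    have e3 := hmod E inf_le_left le_rfl (hY.trans hE.norm)
    have e4 : Nat.card E ≠ 2 := fun e => by
      rw [comm_iff_der.1 (comm_of_cyclic (cyclic_of_card_prime (e ▸ Nat.prime_two)))] at s2
      rw [← s2, card_bot] at hZ
      omega
    obtain ⟨k, hk⟩ := hEp.exists_card_eq
    refine (eq_of_dvd_32 ?_ e3).resolve_left e4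
    rw [hk] at e2 ⊢
    exact pow_dvd_pow 2 ((Nat.pow_le_pow_iff_right (by norm_num)).1 (e2.trans_eq
      (by norm_num : 32 = 2 ^ 5)))
  have hI : Res E χ ∈ Irr E := hch.mem_Irr_of_cfnorm (by
    rw [hE32] at hN
    rw [hN']
    push_cast at hN
    linarith)
  have hCE : G ⊓ 𝒞(E) = Zc E := by
    refine (eq_of_le_of_card_le (inf_le_inf_right _ hE.le) ?_).symm
    rw [hZ]
    refine h.card_le_two ⟨inf_le_left, H1.le_normalizer_inf le_normalizer
      (H1.le_normalizer_centralizer hE.norm)⟩ (comm_iff.2 fun a ha => ?_) fun a ha => ?_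
    · exact cent_le_cent inf_le_left (h.scalar hE.le hI ha.1 ha.2).2
    · exact (h.scalar hE.le hI ha.1 ha.2).1
  have hEQ' : ⁅E, Q⁆ ≤ ⁅E, E⁆ := by
    have e1 := H1.commutator_lt_of_isPGroup hEp hQp (hQ.le.trans hE.norm) hE0
    have e2 : Zc E ≤ ⁅E, Q⁆ := s2 ▸ commutator_mono le_rfl hEQ
    have e3 := hmod _ e2 e1.le (H1.le_normalizer_commutator (hY.trans hE.norm) hnY)
    have e4 := card_dvd_of_le e1.le
    have e5 : Nat.card (⁅E, Q⁆ : Subgroup X) ≠ 32 := fun e =>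
      e1.ne (eq_of_le_of_card_le e1.le (by rw [e, hE32]))
    rw [s2]
    refine (eq_of_le_of_card_le e2 ?_).ge
    rw [hZ, (eq_of_dvd_32 (hE32 ▸ e4) e3).resolve_right e5]
  have hQE := (critical_extraspecial Nat.prime_two (extraspecial_of_der_eq_Zc Nat.prime_two hEp s2 hZ)
    hQp hEQ hEQ').sup_eq
  rw [sup_eq_left.2 ((inf_le_inf_right _ hQ.le).trans (hCE.le.trans inf_le_left))] at hQE
  subst hQE
  exact ⟨hE32, hZ, hCE, s3, k2⟩

theorem St.four (h : St 3 4 V G χ) : Gam V G ∨ Small V G := by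
  by_cases hG : Gam V G
  · exact Or.inl hG
  refine Or.inr fun v hv hv1 => ?_
  obtain ⟨-, Y, hY, hc, -⟩ := h.ppd hG (by norm_num) Nat.prime_five ord_three_five
  obtain ⟨s1, s2, s3, -, s5⟩ := h.four_struct hG hY hc
  have hQ : NormalIn (Op 2 G) G := core_normal {2} G
  have c1 := H1.card_mul_relIndex hQ.le
  rw [s1] at c1
  have key : ∀ g ∈ G, g ∉ Zc (Op 2 G) → 10 * Nat.card (G ⊓ 𝒞[g] : Subgroup X) ≤ Nat.card G := by
    intro g hg hgZ
    have e1 := relIndex_dvd_of_le_norm (inf_le_left : G ⊓ 𝒞[g] ≤ G) hQ.norm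
    have e2 := card_eq_relIndex_mul_inf (Op 2 G) (G ⊓ 𝒞[g])
    have e3 : Nat.card (Op 2 G ⊓ (G ⊓ 𝒞[g]) : Subgroup X) ≠ 32 := fun e =>
      hgZ (s3 ▸ ⟨hg, le_cent1_iff.1 ((eq_of_le_of_card_le inf_le_left (by rw [e, s1])).ge.trans
        (inf_le_right.trans inf_le_right))⟩)
    have e4 : Nat.card (Op 2 G ⊓ (G ⊓ 𝒞[g]) : Subgroup X) ∣ 32 := s1 ▸ card_dvd_of_le inf_le_left
    have e0 := relIndex_pos (Op 2 G) G
    by_cases h5 : 5 ∣ Nat.card (G ⊓ 𝒞[g] : Subgroup X)
    · obtain ⟨Y', hY', hc'⟩ := exists_card_eq_prime Nat.prime_five h5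
      obtain ⟨-, -, -, s4, -⟩ := h.four_struct hG (hY'.trans inf_le_left) hc'
      have e5 := card_modEq_inf_cent (U := Op 2 G ⊓ (G ⊓ 𝒞[g])) Nat.prime_five
        (IsPGroup.of_card (n := 1) (by rw [hc']; rfl))
        (H1.le_normalizer_inf ((hY'.trans inf_le_left).trans hQ.norm) (hY'.trans le_normalizer))
      have hZG : Zc (Op 2 G) ≤ 𝒞(G) := by
        have := relIndex_cent_dvd_totient (cyclic_of_card_prime (by rw [s2]; exact Nat.prime_two))
          (hQ.norm.trans (norm_le_norm_Zc _))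
        rw [s2, Nat.totient_two, Nat.dvd_one, relIndex_eq_one] at this
        exact cent_comm.1 this
      rw [inf_right_comm, s4, inf_eq_left.2 (le_inf (inf_le_left.trans hQ.le)
        (hZG.trans (cent_le_cent1 hg))), s2] at e5
      rw [(eq_of_dvd_32 e4 e5).resolve_right e3] at e2
      have := Nat.le_of_dvd e0 e1
      omega
    · have e5 : 5 ∣ (Op 2 G).relIndex G := by
        have := card_dvd_of_le hY
        rw [hc] at this
        omega
      have e6 := Nat.le_of_dvd e0 (((Nat.prime_five.coprime_iff_not_dvd).2 fun e =>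
        h5 (e2 ▸ e.mul_right _)).mul_dvd_of_dvd_of_dvd e5 e1)
      have e7 : Nat.card (Op 2 G ⊓ (G ⊓ 𝒞[g]) : Subgroup X) ≤ 16 := by
        obtain ⟨k, hk⟩ := e4
        rcases k with _ | _ | k
        · omega
        · omega
        · nlinarith
      nlinarith
  have c2 := h.card_G hv hv1
  have c3 := kc_le_card (G ⊓ 𝒞[v])
  have c4 : 10 * kc G * Nat.card G ≤ (20 + Nat.card G) * Nat.card G := by
    rw [mul_assoc, kc_mul_card, Finset.mul_sum,
      ← sum_fs_diff_add (A := Zc (Op 2 G)) (inf_le_left.trans hQ.le), add_mul, add_comm]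
    refine add_le_add ((Finset.sum_le_card_nsmul _ _ (10 * Nat.card G) fun g _ =>
      Nat.mul_le_mul_left _ (H9.card_le_of_le' inf_le_left)).trans ?_)
      ((Finset.sum_le_card_nsmul _ _ (Nat.card G) fun g hg => key g (mem_fs.1 hg).1
        (mem_fs.1 hg).2).trans ?_)
    · rw [card_fs_subgroup, s2, smul_eq_mul]; omega
    · rw [smul_eq_mul, ← card_fs_subgroup G]
      exact Nat.mul_le_mul_right _ (Finset.card_le_card (fs_subset Set.sdiff_subset))
  have c5 := Nat.le_of_mul_le_mul_right c4 Nat.card_pos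
  rw [h.cardV]
  omega

end Cfsg.Agent.TR
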