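import Cfsg.Agent.Lib.TR.Basic
import Cfsg.Agent.Lib.FT.FieldModel

/-! # One-dimensional semilinear groups -/

set_option autoImplicit false
set_option linter.unusedSectionVars false

namespace Cfsg.Agent.TR

open Subgroup Cfsg.Agent.H6 Cfsg.Agent.FT
open scoped commutatorElement ComplexConjugate Classical

variable {X : Type*} [Group X] [Finite X] {p n r s : ℕ} {V G A D K L M N U Y : Subgroup X}
  {χ ψ ω l : X → ℂ} {g v x y z : X}

/-- The semilinear model: `g` acts as `x ↦ c g * θ g x`. -/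
theorem St.exists_semilinear (h : St p n V G χ) (hG : Gam V G) :
    ∃ (F : Type) (_ : Field F) (_ : Fintype F) (θ : G →* RingAut F) (c : G → F),
      Nat.card F = p ^ n ∧ (∀ g, c g ≠ 0) ∧ (∀ g g', c (g * g') = c g * θ g (c g')) ∧
        ∀ g, θ g = 1 → c g = 1 → g = 1 := by
  obtain ⟨A, hA, hc, hirr⟩ := hG
  obtain ⟨v, hv, hv1⟩ := h.exists_ne
  obtain ⟨F, _, _, φ, hb, hadd, h1, hmul, -⟩ := exists_field_model h.hV.1 (hA.le.trans h.nV)
    (by rw [comm_iff_der.1 hc]; exact bot_le) hirr hv hv1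
  choose σ hσ hσ' using fun y : F => hb.surjOn (Set.mem_univ y)
  have hσφ : ∀ x ∈ V, σ (φ x) = x := fun x hx => hb.injOn (hσ _) hx (hσ' _)
  have hcj : ∀ g : G, ∀ x ∈ V, (g : X) * x * (g : X)⁻¹ ∈ V := fun g x hx =>
    conj_mem_of_mem_normalizer (h.nV g.2) hx
  have φ1 : φ 1 = 0 := by simpa using hadd 1 V.one_mem 1 V.one_mem
  have φ0 : ∀ x ∈ V, φ x = 0 → x = 1 := fun x hx e => hb.injOn hx V.one_mem (e.trans φ1.symm)
  obtain ⟨c, hcd⟩ : ∃ c : G → F, ∀ g, c g = φ (g * v * (g : X)⁻¹) := ⟨_, fun _ => rfl⟩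
  have hc0 : ∀ g, c g ≠ 0 := fun g e =>
    hv1 (by simpa using φ0 _ (hcj g v hv) ((hcd g).symm.trans e))
  obtain ⟨t, htd⟩ : ∃ t : G → F → F, ∀ g y, t g y = (c g)⁻¹ * φ (g * σ y * (g : X)⁻¹) :=
    ⟨_, fun _ _ => rfl⟩
  have ht : ∀ g : G, ∀ x ∈ V, φ (g * x * (g : X)⁻¹) = c g * t g (φ x) := fun g x hx => by
    rw [htd, hσφ x hx, mul_inv_cancel_left₀ (hc0 g)]
  have σadd : ∀ y y', σ (y + y') = σ y * σ y' := fun y y' => by
    rw [← hσφ _ (V.mul_mem (hσ y) (hσ y')), hadd _ (hσ y) _ (hσ y'), hσ', hσ']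
  have tadd : ∀ g y y', t g (y + y') = t g y + t g y' := fun g y y' => by
    rw [htd, htd, htd, σadd, ← mul_add, ← hadd _ (hcj g _ (hσ y)) _ (hcj g _ (hσ y'))]
    congr 2
    group
  have tone : ∀ g, t g 1 = 1 := fun g => by
    rw [htd, ← h1, hσφ v hv, h1, ← hcd]
    exact inv_mul_cancel₀ (hc0 g)
  have tA : ∀ g : G, ∀ a ∈ A, ∀ y, t g (φ (a * v * a⁻¹) * y) = t g (φ (a * v * a⁻¹)) * t g y :=
    fun g a ha y => by
      have ha' := conj_mem_of_mem_normalizer (hA.norm g.2) ha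
      have e : ∀ x ∈ V, c g * t g (φ (a * v * a⁻¹) * φ x) =
          φ (g * a * (g : X)⁻¹ * v * (g * a * (g : X)⁻¹)⁻¹) * (c g * t g (φ x)) := fun x hx => by
        rw [← hmul a ha x hx, ← ht g _ (hcj ⟨a, hA.le ha⟩ x hx), ← ht g x hx,
          ← hmul _ ha' _ (hcj g x hx)]
        congr 1
        group
      have e1 := e v hv
      have e2 := e _ (hσ y)
      rw [h1, mul_one, tone, mul_one] at e1
      rw [hσ'] at e2
      apply mul_left_cancel₀ (hc0 g)
      rw [e2, ← mul_assoc, ← e1, mul_assoc]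
  have tmul : ∀ g y y', t g (y * y') = t g y * t g y' := fun g y y' => by
    let U : Subgroup X :=
      { carrier := {x | x ∈ V ∧ ∀ y', t g (φ x * y') = t g (φ x) * t g y'}
        one_mem' := ⟨V.one_mem, fun y' => by
          have : t g 0 = 0 := by simpa using tadd g 0 0
          rw [φ1, zero_mul, this, zero_mul]⟩
        mul_mem' := fun {a b} ha hb => ⟨V.mul_mem ha.1 hb.1, fun y' => by
          rw [hadd a ha.1 b hb.1, add_mul, tadd, tadd, ha.2, hb.2, add_mul]⟩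
        inv_mem' := fun {a} ha => ⟨V.inv_mem ha.1, fun y' => by
          have e0 : t g 0 = 0 := by simpa using tadd g 0 0
          have e1 := hadd _ (V.inv_mem ha.1) a ha.1
          rw [inv_mul_cancel, φ1] at e1
          have e2 := tadd g (φ a⁻¹) (φ a)
          have e3 := tadd g (φ a⁻¹ * y') (φ a * y')
          rw [← add_mul, ← e1, zero_mul, e0, ha.2] at e3
          rw [← e1, e0] at e2
          linear_combination t g y' * e2 - e3⟩ }
    have hU : U = V := (hirr U (fun x hx => hx.1) fun a ha => mem_normalizer_of_conj_mem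
      fun x hx => ⟨hcj ⟨a, hA.le ha⟩ x hx.1, fun y' => by
        rw [hmul a ha x hx.1, mul_assoc, tA g a ha, tA g a ha (φ x), hx.2, mul_assoc (t g _)]⟩).resolve_left
      fun e => hv1 (mem_bot.1 (e.le ⟨hv, fun y' => by rw [h1, one_mul, tone, one_mul]⟩))
    have := (hU.ge (hσ y)).2 y'
    rwa [hσ'] at this
  let τ : G → F →+* F := fun g => RingHom.mk' ⟨⟨t g, tone g⟩, tmul g⟩ (tadd g)
  let α : G → RingAut F := fun g =>
    RingEquiv.ofBijective (τ g) (Finite.injective_iff_bijective.1 (τ g).injective)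
  have hα : ∀ g y, α g y = t g y := fun g y => rfl
  have hcc : ∀ g g' : G, ∀ x ∈ V,
      c (g * g') * t (g * g') (φ x) = c g * t g (c g' * t g' (φ x)) := fun g g' x hx => by
    rw [← ht _ x hx, ← ht _ x hx, ← ht _ _ (hcj g' x hx), coe_mul]
    congr 1
    group
  have hc2 : ∀ g g', c (g * g') = c g * t g (c g') := fun g g' => by
    have := hcc g g' v hv
    rwa [h1, tone, tone, mul_one, mul_one] at this
  refine ⟨F, inferInstance, inferInstance, MonoidHom.mk' α fun g g' => RingEquiv.ext fun y => ?_, c, ?_, hc0, hc2,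
    fun g h2 h3 => ?_⟩
  · have := hcc g g' _ (hσ y)
    rw [hσ', tmul, ← mul_assoc, ← hc2] at this
    exact mul_left_cancel₀ (hc0 _) this
  · rw [← h.cardV, ← Nat.card_congr (Equiv.Set.univ F)]
    exact (Nat.card_congr hb.equiv).symm
  · have : (g : X) ∈ G ⊓ 𝒞(V) := ⟨g.2, mem_cent.2 fun x hx => by
      have e := ht g x hx
      rw [h3, one_mul, ← hα, show α g = 1 from h2] at e
      exact (mul_inv_eq_iff_eq_mul.1 (hb.injOn (hcj g x hx) hx e)).symm⟩
    rw [h.ff, mem_bot] at this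
    exact Subtype.ext this

theorem card_fix_pow {F : Type} [Field F] [Fintype F] (Γ : Subgroup (RingAut F)) :
    Nat.card (FixedPoints.subfield Γ F) ^ Nat.card Γ = Nat.card F := by
  have : Finite (RingAut F) := Finite.of_injective _ DFunLike.coe_injective
  have := Fintype.ofFinite Γ
  rw [Nat.card_eq_fintype_card (α := Γ), ← FixedPoints.finrank_eq_card Γ F,
    ← Module.natCard_eq_pow_finrank]

theorem gam_card_eq (K L : Subgroup X) :
    Nat.card L = K.relIndex L * Nat.card (K ⊓ L : Subgroup X) := by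
  rw [← H1.card_subgroupOf, relIndex, index_mul_card]

theorem card_inf_cent1 (L : Subgroup X) (g : X) : Nat.card (L ⊓ 𝒞[g] : Subgroup X) =
    ∑ h ∈ fs (L : Set X), if h * g = g * h then 1 else 0 := by
  rw [← Finset.card_filter, ← card_fs_subgroup]
  congr 1
  ext h
  simp [mem_cent1]

/-- The class number of a group with an abelian subgroup `A`. -/
theorem kc_mul_le (hA : A ≤ G) (hc : IsMulCommutative A) {c : ℕ}
    (h : ∀ g ∈ G, g ∉ A → Nat.card (A ⊓ 𝒞[g] : Subgroup X) ≤ c) :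
    kc G * A.relIndex G + c ≤ Nat.card A + A.relIndex G ^ 2 * c := by
  have hG : Nat.card G = A.relIndex G * Nat.card A := by
    rw [gam_card_eq A G, inf_eq_left.2 hA]
  have hm : (fs ((G : Set X) \ A)).card + Nat.card A = A.relIndex G * Nat.card A := by
    have := sum_fs_diff_add (A := (A : Set X)) (B := G) hA fun _ => (1 : ℕ)
    simpa only [← Finset.card_eq_sum_ones, card_fs_subgroup, hG] using this
  have h1 : ∑ g ∈ fs ((G : Set X) \ A), Nat.card (A ⊓ 𝒞[g] : Subgroup X) ≤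
      (fs ((G : Set X) \ A)).card * c :=
    Finset.sum_le_card_nsmul _ _ _ fun g hg => h g (mem_fs.1 hg).1 (mem_fs.1 hg).2
  have h2 : ∑ g ∈ fs ((G : Set X) \ A), Nat.card (G ⊓ 𝒞[g] : Subgroup X) ≤
      (fs ((G : Set X) \ A)).card * (A.relIndex G * c) :=
    Finset.sum_le_card_nsmul _ _ _ fun g hg => by
      rw [gam_card_eq A, ← inf_assoc, inf_eq_left.2 hA]
      exact Nat.mul_le_mul (relIndex_le_of_le_right inf_le_left (relIndex_ne_zero' _ _))
        (h g (mem_fs.1 hg).1 (mem_fs.1 hg).2)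
  have h3 : ∑ g ∈ fs (A : Set X), Nat.card (G ⊓ 𝒞[g] : Subgroup X) =
      ∑ g ∈ fs (G : Set X), Nat.card (A ⊓ 𝒞[g] : Subgroup X) := by
    simp only [card_inf_cent1]
    rw [Finset.sum_comm]
    simp only [eq_comm]
  have h4 : ∑ g ∈ fs (A : Set X), Nat.card (A ⊓ 𝒞[g] : Subgroup X) = Nat.card A * Nat.card A := by
    rw [Finset.sum_congr rfl fun g hg => by
      rw [inf_eq_left.2 ((comm_iff.1 hc).trans (cent_le_cent1 (mem_fs.1 hg)))],
      Finset.sum_const, card_fs_subgroup, smul_eq_mul]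
  have h5 := kc_mul_card G
  rw [← sum_fs_diff_add (A := (A : Set X)) hA, h3, ← sum_fs_diff_add (A := (A : Set X)) hA, h4,
    hG] at h5
  refine Nat.le_of_mul_le_mul_right ?_ (Nat.card_pos (α := A))
  generalize (fs ((G : Set X) \ A)).card = m at *
  have h6 : m * (A.relIndex G * c) + m * c + Nat.card A * (A.relIndex G * c) + Nat.card A * c =
      A.relIndex G * Nat.card A * (A.relIndex G * c + c) := by rw [← hm]; ring
  nlinarith

theorem gamma_arith {q f a k e y ℓ : ℕ} (hp : p.Prime) (hf : 2 ≤ f) (hpf : ¬ p ∣ f)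
    (hq : p ^ f ≤ q) (hℓ : 2 ≤ ℓ) (hℓf : ℓ ∣ f) (hy : (y + 1) ^ ℓ ≤ q) (ha : a + 1 ≤ q)
    (he : f * a + e = q * e) (h0 : 0 < a) (hk : k * f + y ≤ a + f ^ 2 * y) :
    k + e ≤ q ∧ (k + e = q → (q = 8 ∧ f * a = 21) ∨ (q = 9 ∧ f * a = 16)) := by
  have hy2 : (y + 1) ^ 2 ≤ q := (Nat.pow_le_pow_right (by omega) hℓ).trans hy
  have hef : e ≤ f := by
    by_contra hlt
    obtain ⟨q, rfl⟩ : ∃ m, q = m + 1 := ⟨q - 1, by omega⟩
    nlinarith
  by_cases h1 : (f + 1) * (y + 1) < q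
  · have : k + e < q := by
      obtain ⟨f, rfl⟩ : ∃ m, f = m + 2 := ⟨f - 2, by omega⟩
      refine Nat.lt_of_mul_lt_mul_left (a := f + 2) ?_
      nlinarith
    exact ⟨this.le, fun e => (this.ne e).elim⟩
  push Not at h1
  have h2 : q ≤ (f + 1) ^ 2 := by
    have : q * q ≤ (f + 1) ^ 2 * q := by
      calc q * q ≤ ((f + 1) * (y + 1)) * ((f + 1) * (y + 1)) := Nat.mul_le_mul h1 h1
        _ = (f + 1) ^ 2 * (y + 1) ^ 2 := by ring
        _ ≤ _ := Nat.mul_le_mul_left _ hy2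
    exact Nat.le_of_mul_le_mul_right this (by omega)
  have h3 : 2 ^ f ≤ q := (Nat.pow_le_pow_left hp.two_le f).trans hq
  have h4 : f ≤ 5 := by
    by_contra h4
    have : ∀ m, (m + 6 + 1) ^ 2 < 2 ^ (m + 6) := fun m => by
      induction m with
      | zero => norm_num
      | succ m ih =>
        have : (m + 6 + 1 + 1) ^ 2 + (m ^ 2 + 12 * m + 34) = (m + 6 + 1) ^ 2 * 2 := by ring
        rw [show m + 1 + 6 = m + 6 + 1 by ring, pow_succ 2 (m + 6)]
        omega
    have := this (f - 6)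
    rw [Nat.sub_add_cancel (by omega)] at this
    omega
  have h5 : 2 ∣ f → 3 ^ f ≤ q := fun h => (Nat.pow_le_pow_left (by
    have := hp.two_le
    have : p ≠ 2 := fun e => hpf (e ▸ h)
    omega) f).trans hq
  interval_cases f
  · have := h5 dvd_rfl
    obtain rfl : q = 9 := by omega
    have : y ≤ 2 := by nlinarith
    omega
  · obtain rfl : ℓ = 3 := ((Nat.dvd_prime Nat.prime_three).1 hℓf).resolve_left (by omega)
    have : y ≤ 1 := by
      by_contra h6
      have : 3 ^ 2 * (y + 1) ≤ (y + 1) ^ 2 * (y + 1) := by gcongr; omega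
      rw [show (y + 1) ^ 2 * (y + 1) = (y + 1) ^ 3 by ring] at this
      omega
    obtain rfl : q = 8 := by omega
    omega
  · have := h5 (by norm_num)
    omega
  · obtain rfl : ℓ = 5 := ((Nat.dvd_prime Nat.prime_five).1 hℓf).resolve_left (by omega)
    have : 5 ^ 5 ≤ (y + 1) ^ 5 := by gcongr; omega
    omega

theorem St.gamma (h : St p n V G χ) (hG : Gam V G) (hv : v ∈ V) (hv1 : v ≠ 1) :
    kc G + kc (G ⊓ 𝒞[v]) ≤ Nat.card V ∧ (kc G + kc (G ⊓ 𝒞[v]) = Nat.card V →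
      IsCyclic G ∨ (Nat.card V = 8 ∧ Nat.card G = 21) ∨ (Nat.card V = 9 ∧ Nat.card G = 16)) := by
  obtain ⟨F, _, _, θ, c, hF, hc0, hc, hinj⟩ := h.exists_semilinear hG
  have c1 : c 1 = 1 := by
    have := hc 1 1
    rw [mul_one, map_one] at this
    exact (mul_right_eq_self₀.1 this.symm).resolve_right (hc0 1)
  let u : θ.ker →* Fˣ := MonoidHom.mk' (fun a => Units.mk0 (c a) (hc0 a)) fun a b => Units.ext (by
    have := hc a b
    rwa [show θ a = 1 from a.2] at this)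
  have hu : Function.Injective u := (injective_iff_map_eq_one _).2 fun a ha =>
    Subtype.ext (hinj a a.2 (congrArg Units.val ha))
  have hcyc : IsCyclic θ.ker := isCyclic_of_injective u hu
  set A := θ.ker.map G.subtype with hA
  have hAG : A ≤ G := map_subtype_le _
  have hmem : ∀ g : G, (g : X) ∈ A ↔ θ g = 1 := fun g => mem_map_iff_mem Subtype.val_injective
  have hAc : IsCyclic A := isCyclic_of_surjective _ (equivMapOfInjective _ _ G.subtype_injective).surjective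
  have hq : 0 < p ^ n := pow_pos h.hp.pos n
  have ha : Nat.card A + 1 ≤ p ^ n := by
    have := Nat.card_le_card_of_injective u hu
    rw [Nat.card_units, hF] at this
    rw [hA, card_map_of_injective G.subtype_injective]
    omega
  have hf : A.relIndex G = Nat.card θ.range := by
    rw [relIndex, subgroupOf, hA, comap_map_eq_self_of_injective G.subtype_injective, index_ker]
  have hGc : Nat.card G = A.relIndex G * Nat.card A := by
    rw [gam_card_eq A G, inf_eq_left.2 hAG]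
  have he := h.card_G hv hv1
  have hk := kc_le_card (G ⊓ 𝒞[v])
  rw [h.cardV]
  have ha0 : 0 < Nat.card A := Nat.card_pos
  by_cases hGA : G ≤ A
  · have e := le_antisymm hAG hGA
    refine ⟨?_, fun _ => Or.inl (e ▸ hAc)⟩
    have h1 := kc_le_card G
    rw [e] at ha
    have h2 : Nat.card (G ⊓ 𝒞[v] : Subgroup X) ≤ 1 := by
      by_contra h2
      have := Nat.mul_le_mul_left (p ^ n - 1) (show 2 ≤ Nat.card (G ⊓ 𝒞[v] : Subgroup X) by omega)
      have := Nat.one_lt_pow h.npos.ne' h.hp.one_lt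
      omega
    omega
  obtain ⟨g0, hg0, hg0'⟩ := SetLike.not_le_iff_exists.1 hGA
  obtain ⟨g, hg, hmax⟩ := Finset.exists_max_image (fs ((G : Set X) \ A))
    (fun g => Nat.card (A ⊓ 𝒞[g] : Subgroup X)) ⟨g0, mem_fs.2 ⟨hg0, hg0'⟩⟩
  rw [mem_fs] at hg
  have h1 := kc_mul_le hAG (comm_of_cyclic hAc) fun g hg hg' => hmax g (mem_fs.2 ⟨hg, hg'⟩)
  have hθ : θ ⟨g, hg.1⟩ ≠ 1 := fun e => hg.2 ((hmem ⟨g, hg.1⟩).2 e)
  have hfin : Finite (RingAut F) := Finite.of_injective _ DFunLike.coe_injective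
  have hℓ : 2 ≤ orderOf (θ ⟨g, hg.1⟩) := by
    have := orderOf_pos (θ ⟨g, hg.1⟩)
    have := mt orderOf_eq_one_iff.1 hθ
    omega
  have hℓf : orderOf (θ ⟨g, hg.1⟩) ∣ A.relIndex G := hf ▸ orderOf_dvd_natCard _ ⟨_, rfl⟩
  have hf0 : A.relIndex G ≠ 0 := relIndex_ne_zero' _ _
  have hq' : p ^ A.relIndex G ≤ p ^ n := by
    have e := card_fix_pow θ.range
    rw [hF, ← hf] at e
    rw [← e]
    refine Nat.pow_le_pow_left (Nat.le_of_dvd Nat.card_pos (h.hp.dvd_of_dvd_pow (n := A.relIndex G) ?_)) _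
    exact e ▸ dvd_pow_self p h.npos.ne'
  have hy : (Nat.card (A ⊓ 𝒞[g] : Subgroup X) + 1) ^ orderOf (θ ⟨g, hg.1⟩) ≤ p ^ n := by
    have e := card_fix_pow (zpowers (θ ⟨g, hg.1⟩))
    rw [hF, Nat.card_zpowers] at e
    rw [← e]
    refine Nat.pow_le_pow_left ?_ _
    have hfix : ∀ a : (A ⊓ 𝒞[g] : Subgroup X),
        c ⟨a, hAG a.2.1⟩ ∈ FixedPoints.subfield (zpowers (θ ⟨g, hg.1⟩)) F := fun a => by
      have e1 := hc ⟨a, hAG a.2.1⟩ ⟨g, hg.1⟩
      rw [show (⟨a, hAG a.2.1⟩ * ⟨g, hg.1⟩ : G) = ⟨g, hg.1⟩ * ⟨a, hAG a.2.1⟩ from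
        Subtype.ext (mem_cent1.1 a.2.2), hc, (hmem ⟨a, hAG a.2.1⟩).1 a.2.1, mul_comm] at e1
      have e2 : θ ⟨g, hg.1⟩ ∈ MulAction.stabilizer (RingAut F) (c ⟨a, hAG a.2.1⟩) :=
        mul_right_cancel₀ (hc0 _) e1
      exact fun s => zpowers_le.2 e2 s.2
    have := Nat.card_le_card_of_injective (fun a : (A ⊓ 𝒞[g] : Subgroup X) =>
      Units.mk0 (⟨_, hfix a⟩ : FixedPoints.subfield (zpowers (θ ⟨g, hg.1⟩)) F)
        fun e => hc0 _ (congrArg Subtype.val e)) fun a b e => by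
      have e1 : c ⟨a, hAG a.2.1⟩ = c ⟨b, hAG b.2.1⟩ := congrArg (fun x => x.val.val) e
      have e2 := @hu ⟨⟨a, hAG a.2.1⟩, (hmem _).1 a.2.1⟩ ⟨⟨b, hAG b.2.1⟩, (hmem _).1 b.2.1⟩
        (Units.ext e1)
      exact Subtype.ext (congrArg (fun x => x.val.val) e2)
    rw [Nat.card_units] at this
    have : 0 < Nat.card (FixedPoints.subfield (zpowers (θ ⟨g, hg.1⟩)) F) := Nat.card_pos
    omega
  have := gamma_arith (e := Nat.card (G ⊓ 𝒞[v] : Subgroup X)) h.hp
    (hℓ.trans (Nat.le_of_dvd (Nat.pos_of_ne_zero hf0) hℓf))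
    (fun e => h.cop (e.trans (relIndex_dvd_card _ _))) hq' hℓ hℓf hy ha (by
      rw [← hGc, he, Nat.sub_one_mul, Nat.sub_add_cancel (Nat.le_mul_of_pos_left _ hq)]) ha0 h1
  rw [← hGc] at this
  exact ⟨by omega, fun e => Or.inr (this.2 (by omega))⟩

end Cfsg.Agent.TR
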