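import Cfsg.Agent.Lib.TR.Defs

/-! # The complex lift of a coprime module is invariant under `g ↦ g ^ p` -/

set_option autoImplicit false
set_option linter.unusedSectionVars false

namespace Cfsg.Agent.TR

open Subgroup Cfsg.Agent.H6 Cfsg.Agent.FT
open scoped commutatorElement ComplexConjugate Classical

section Trace
open Polynomial

variable {S ι : Type*} [CommRing S] [Fintype ι] [DecidableEq ι]

theorem map_det_idem {T : Type*} [CommRing T] (E : Matrix ι ι S) (φ : S[X] →+* T) :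
    φ (Matrix.det (1 + (X - 1 : S[X]) • E.map C)) =
      Matrix.det (1 + (φ X - 1) • E.map (φ.comp C)) := by
  rw [RingHom.map_det]
  congr 1
  ext i j
  simp [Matrix.one_apply, apply_ite φ]

/-- The trace of an idempotent matrix is fixed by ring endomorphisms fixing the idempotents. -/
theorem map_trace_idem {E : Matrix ι ι S} (hE : E * E = E) (F : S →+* S)
    (hF : ∀ e : S, IsIdempotentElem e → F e = e) : F E.trace = E.trace := by
  set P := Matrix.det (1 + (X - 1 : S[X]) • E.map C) with hP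
  have h1 : eval₂RingHom ((C : S[X] →+* S[X][X]).comp C) (C X * X) P =
      C P * mapRingHom C P := by
    rw [hP, map_det_idem, map_det_idem E (C : S[X] →+* S[X][X]), map_det_idem E (mapRingHom C),
      ← Matrix.det_mul]
    have e1 : (eval₂RingHom ((C : S[X] →+* S[X][X]).comp C) (C X * X)).comp C =
        (C : S[X] →+* S[X][X]).comp C := RingHom.ext fun s => by simp
    have e2 : (mapRingHom (C : S →+* S[X])).comp C = (C : S[X] →+* S[X][X]).comp C :=
      RingHom.ext fun s => by simp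
    have e3 : E.map ((C : S[X] →+* S[X][X]).comp C) * E.map ((C : S[X] →+* S[X][X]).comp C) =
        E.map ((C : S[X] →+* S[X][X]).comp C) := by rw [← Matrix.map_mul, hE]
    rw [e1, e2]
    congr 1
    simp only [add_mul, mul_add, one_mul, mul_one, Matrix.smul_mul, Matrix.mul_smul, e3,
      coe_eval₂RingHom, eval₂_X, coe_mapRingHom, map_X]
    module
  have h2 : ∀ k, IsIdempotentElem (P.coeff k) := fun k => by
    have h3 := congrArg (fun q => (q.coeff k).coeff k) h1
    simp only [coe_eval₂RingHom, coeff_C_mul, coe_mapRingHom, coeff_map, coeff_mul_C] at h3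
    have h6 : ∀ j, ((C : S[X] →+* S[X][X]).comp C) (P.coeff j) * (C X * X) ^ j =
        C (C (P.coeff j) * X ^ j) * X ^ j := fun j => by simp [mul_pow, mul_assoc]
    rw [IsIdempotentElem, ← h3, eval₂_eq_sum, Polynomial.sum, finsetSum_coeff,
      Finset.sum_eq_single k]
    · rw [h6, coeff_C_mul_X_pow, if_pos rfl, coeff_C_mul_X_pow, if_pos rfl]
    · intro j _ hj
      rw [h6, coeff_C_mul_X_pow, if_neg hj.symm]
    · intro hk
      simp [notMem_support_iff.1 hk]
  have h4 : P.map F = P := Polynomial.ext fun k => by rw [coeff_map, hF _ (h2 k)]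
  have h5 : E.trace = (P.comp (X + 1)).coeff 1 := by
    rw [← Matrix.coeff_det_one_add_X_smul_one]
    have := map_det_idem E (eval₂RingHom C (X + 1))
    rw [show (eval₂RingHom (C : S →+* S[X]) (X + 1)).comp C = C from RingHom.ext fun s => by simp]
      at this
    simp only [coe_eval₂RingHom, eval₂_X, add_sub_cancel_right] at this
    rw [← this]
    rfl
  rw [h5, ← coeff_map, Polynomial.map_comp, h4]
  simp

end Trace

theorem trace_pow_comm {p m : ℕ} [hp : Fact p.Prime] {C ι : Type*} [CommGroup C] [Finite C]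
    [Fintype ι] [DecidableEq ι] (hC : ¬ p ∣ Nat.card C) (σ : C →* Matrix ι ι (ZMod (p ^ (m + 1)))) (g : C) :
    (σ (g ^ p)).trace = (σ g).trace := by
  have : NeZero (p ^ (m + 1)) := ⟨pow_ne_zero _ hp.out.ne_zero⟩
  have := Fintype.ofFinite C
  have hcop := (Nat.Prime.coprime_iff_not_dvd hp.out).2 hC
  obtain ⟨u, hu⟩ : IsUnit ((Nat.card C : ℕ) : ZMod (p ^ (m + 1))) :=
    (ZMod.isUnit_iff_coprime _ _).2 (hcop.symm.pow_right _)
  let S := MonoidAlgebra (ZMod (p ^ (m + 1))) C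
  let a : ZMod (p ^ (m + 1)) →+* S := algebraMap _ _
  let o : C →* S := MonoidAlgebra.of _ _
  let F : S →+* S := MonoidAlgebra.mapDomainRingHom _ (powMonoidHom p : C →* C)
  have Fa : ∀ r, F (a r) = a r := fun r => MonoidAlgebra.mapDomain_algebraMap _ _ _
  have Fo : ∀ c, F (o c) = o (c ^ p) := fun c => MonoidAlgebra.mapDomain_single
  have hF : ∀ s : S, ∃ r, F s = s ^ p + p * r := fun s => by
    induction s using MonoidAlgebra.induction_on with
    | of c => exact ⟨0, by rw [mul_zero, add_zero]; exact (Fo c).trans (map_pow o c p)⟩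
    | add x y hx hy =>
      obtain ⟨r, hr⟩ := hx
      obtain ⟨r', hr'⟩ := hy
      obtain ⟨t, ht⟩ := exists_add_pow_prime_eq hp.out x y
      exact ⟨r + r' - x * y * t, by rw [map_add, hr, hr', ht]; ring⟩
    | smul c x hx =>
      obtain ⟨r, hr⟩ := hx
      obtain ⟨t, ht⟩ : ∃ t, c = c ^ p + p * t := by
        obtain ⟨n, rfl⟩ := ZMod.intCast_surjective c
        obtain ⟨t, ht⟩ := (Int.ModEq.pow_prime_eq_self hp.out n).dvd
        exact ⟨t, by exact_mod_cast congrArg Int.cast (eq_add_of_sub_eq' ht)⟩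
      refine ⟨a c * r + a t * x ^ p, ?_⟩
      have e : a c = a c ^ p + p * a t := by rw [← map_pow, ← map_natCast a, ← map_mul, ← map_add, ← ht]
      rw [Algebra.smul_def]
      change F (a c * x) = (a c * x) ^ p + _
      rw [map_mul, Fa, hr]
      linear_combination x ^ p * e
  have hp0 : (p : S) ^ (m + 1) = 0 := by
    rw [← map_natCast a, ← map_pow, ← Nat.cast_pow, ZMod.natCast_self, map_zero]
  let τ : C →* Matrix ι ι S :=
    { toFun := fun c => o c⁻¹ • (σ c).map a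
      map_one' := by simp
      map_mul' := fun c d => by
        rw [Matrix.smul_mul, Matrix.mul_smul, smul_smul, ← Matrix.map_mul, ← map_mul, ← map_mul,
          mul_inv] }
  have hsum : (∑ c, τ c) * ∑ c, τ c = a u • ∑ c, τ c := by
    rw [Finset.sum_mul, hu, map_natCast, Nat.cast_smul_eq_nsmul, Nat.card_eq_fintype_card,
      ← Finset.card_univ, ← Finset.sum_const]
    refine Finset.sum_congr rfl fun c _ => ?_
    rw [Finset.mul_sum]
    exact Fintype.sum_equiv (Equiv.mulLeft c) _ _ fun d => (map_mul τ c d).symm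
  have h1 := map_trace_idem (E := a ↑u⁻¹ • ∑ c, τ c) (by
    rw [Matrix.smul_mul, Matrix.mul_smul, hsum, smul_smul, smul_smul, ← map_mul, ← map_mul,
      Units.inv_mul_cancel_right]) F fun e he => by
      obtain ⟨r, hr⟩ := hF e
      refine eq_of_isNilpotent_sub_of_isIdempotentElem (he.map F) he ⟨m + 1, ?_⟩
      rw [hr, he.pow_eq hp.out.ne_zero, add_sub_cancel_left, mul_pow, hp0, zero_mul]
  rw [Matrix.trace_smul, smul_eq_mul, map_mul, Fa, (u⁻¹.isUnit.map a).mul_right_inj,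
    Matrix.trace_sum, map_sum] at h1
  have h2 : ∀ c, (τ c).trace = MonoidAlgebra.single c⁻¹ (σ c).trace := fun c => by
    change (o c⁻¹ • (σ c).map a).trace = _
    rw [Matrix.trace_smul, ← AddMonoidHom.map_trace, smul_eq_mul]
    simp [o, a, S, MonoidAlgebra.single_mul_single]
  have h3 : ∀ c r, F (MonoidAlgebra.single c r) = MonoidAlgebra.single (c ^ p) r := fun c r =>
    MonoidAlgebra.mapDomain_single
  simp only [h2, h3] at h1
  have h4 := congrArg (fun s : S => s.coeff (g ^ p)⁻¹) h1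
  have hinj : ∀ c : C, c ^ p = g ^ p ↔ c = g := fun c =>
    (powCoprime hcop.symm).injective.eq_iff
  dsimp only [S] at h4
  rw [MonoidAlgebra.coeff_sum, MonoidAlgebra.coeff_sum] at h4
  simp only [MonoidAlgebra.coeff_single, Finsupp.coe_finsetSum,
    Finset.sum_apply, Finsupp.single_apply, inv_pow, inv_inj, hinj] at h4
  simpa using h4.symm

theorem trace_pow_zmod {p m : ℕ} [hp : Fact p.Prime] {Γ ι : Type*} [Group Γ] [Finite Γ]
    [Fintype ι] [DecidableEq ι] (hΓ : ¬ p ∣ Nat.card Γ) (σ : Γ →* Matrix ι ι (ZMod (p ^ (m + 1)))) (g : Γ) :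
    (σ (g ^ p)).trace = (σ g).trace := by
  let _ : CommGroup (zpowers g) := IsCyclic.commGroup
  exact trace_pow_comm (fun h => hΓ (h.trans (card_subgroup_dvd_card (zpowers g))))
    (σ.comp (zpowers g).subtype) ⟨g, mem_zpowers g⟩

theorem character_lift {p : ℕ} [hp : Fact p.Prime] {Γ V : Type*} [Group Γ] [Finite Γ]
    (hΓ : ¬ p ∣ Nat.card Γ) [AddCommGroup V] [Module (ZMod p) V] [Module.Finite (ZMod p) V]
    (ρ : Representation (ZMod p) Γ V) :
    ∃ χ : Γ → ℂ, IsCharacter Γ χ ∧ (∀ g, χ (g ^ p) = χ g) ∧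
      ∀ (C : Subgroup Γ) [Fintype C], ∑ x : C, χ x =
      Nat.card C * Module.finrank (ZMod p) (Representation.invariants (ρ.comp C.subtype)) := by
  choose σ hσ using Wielandt.exists_lift_zmod hΓ ρ
  have (m : ℕ) : NeZero (p ^ (m + 1)) := ⟨pow_ne_zero _ hp.out.ne_zero⟩
  let R := ∀ m : ℕ, ZMod (p ^ (m + 1))
  have : CharZero R := charZero_of_inj_zero fun n hn => by
    have h : ((n : ℕ) : ZMod (p ^ (n + 1))) = 0 := congrFun hn n
    rw [ZMod.natCast_eq_zero_iff] at h
    exact Nat.eq_zero_of_dvd_of_lt h ((Nat.lt_succ_self n).trans (Nat.lt_pow_self hp.out.one_lt))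
  obtain ⟨φ⟩ := Wielandt.nonempty_ringHom_complex R (by
    have h : Function.Injective fun (r : R) (m : ℕ) => (r m).val := fun r s h =>
      funext fun m => ZMod.val_injective _ (congrFun h m)
    simpa using Cardinal.mk_le_of_injective h)
  let τ : Γ →* Matrix (Fin (Module.finrank (ZMod p) V)) (Fin (Module.finrank (ZMod p) V)) R :=
    Matrix.piRingEquiv.symm.toMonoidHom.comp (MonoidHom.pi σ)
  let ρ' : Representation ℂ Γ (Fin (Module.finrank (ZMod p) V) → ℂ) :=
    Matrix.toLinAlgEquiv'.toMulEquiv.toMonoidHom.comp (φ.mapMatrix.toMonoidHom.comp τ)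
  have h1 : ∀ g, ρ'.character g = φ (τ g).trace := fun g => by
    rw [AddMonoidHom.map_trace]
    exact Matrix.trace_toLin'_eq _
  refine ⟨ρ'.character, ⟨_, ρ', rfl⟩, fun g => ?_, fun C _ => ?_⟩
  · rw [h1, h1]
    congr 1
    funext m
    have := trace_pow_zmod hΓ (σ m) g
    simpa [Matrix.trace, τ, R] using this
  simp only [h1]
  rw [← map_sum, ← Matrix.trace_sum, ← Nat.cast_mul, ← map_natCast φ]
  congr 1
  funext m
  refine Eq.trans ?_ (hσ m C)
  simp [Matrix.trace, Matrix.sum_apply, τ, R]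

theorem character_add {p : ℕ} [hp : Fact p.Prime] {Γ V : Type*} [Group Γ] [Finite Γ]
    (hΓ : ¬ p ∣ Nat.card Γ) [AddCommGroup V] [Module (ZMod p) V] [Finite V]
    (T : Γ → V →+ V) (h1 : ∀ v, T 1 v = v) (hmul : ∀ a b v, T (a * b) v = T a (T b v)) :
    ∃ χ : Γ → ℂ, IsCharacter Γ χ ∧ (∀ g, χ (g ^ p) = χ g) ∧
      ∀ (C : Subgroup Γ) [Fintype C], ∃ d : ℕ,
      Nat.card {w : V // ∀ a ∈ C, T a w = w} = p ^ d ∧ ∑ x : C, χ x = Nat.card C * d := by
  have : Module.Finite (ZMod p) V := Module.Finite.of_finite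
  let ρ : Representation (ZMod p) Γ V :=
    { toFun := fun g => (T g).toZModLinearMap p
      map_one' := LinearMap.ext h1
      map_mul' := fun a b => LinearMap.ext (hmul a b) }
  obtain ⟨χ, hχ, hg, h⟩ := character_lift hΓ ρ
  refine ⟨χ, hχ, hg, fun C _ => ⟨_, ?_, h C⟩⟩
  conv_rhs => arg 1; rw [← Nat.card_zmod p]
  rw [← Module.natCard_eq_pow_finrank]
  exact Nat.card_congr (Equiv.subtypeEquivRight fun w =>
    ⟨fun h a => h a a.2, fun h a ha => h ⟨a, ha⟩⟩)

theorem character_mulAut {p : ℕ} (hp : p.Prime) {W : Type*} [CommGroup W] [Finite W]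
    (hW : ∀ w : W, w ^ p = 1) (Γ : Subgroup (MulAut W)) (hΓ : ¬ p ∣ Nat.card Γ) :
    ∃ χ : Γ → ℂ, IsCharacter Γ χ ∧ (∀ g, χ (g ^ p) = χ g) ∧
      ∀ (C : Subgroup Γ) [Fintype C], ∃ d : ℕ,
      Nat.card {w : W // ∀ a ∈ C, (a : MulAut W) w = w} = p ^ d ∧
        ∑ x : C, χ x = Nat.card C * d := by
  have := Fact.mk hp
  let _ : Module (ZMod p) (Additive W) := AddCommGroup.zmodModule fun x => by
    rw [← ofMul_toMul x, ← ofMul_pow, hW, ofMul_one]
  exact character_add (V := Additive W) hΓ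
    (fun g => MonoidHom.toAdditive ((g : MulAut W) : W →* W)) (fun v => by simp)
    (fun a b v => by simp)

theorem brauer_lift {G : Type*} [Group G] [Finite G] {k : ℕ} {L V : Subgroup G} (hk : k.Prime) (hV : IsElementaryAbelian k V) (hn : L ≤ 𝒩(V))
    (hkL : ¬ k ∣ (𝒞(V)).relIndex L) :
    ∃ χ : G → ℂ, IsChar L χ ∧ (∀ A ≤ L, ∃ d : ℕ, Nat.card (V ⊓ 𝒞(A) : Subgroup G) = k ^ d ∧
      ⟪χ, cf1 A⟫[A] = d) ∧ Nat.card V = k ^ deg χ ∧ cfker L χ = L ⊓ 𝒞(V) ∧
      ∀ g ∈ L, χ (g ^ k) = χ g := by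
  classical
  have := hV.1
  let _ : CommGroup V := { (inferInstance : Group V) with mul_comm := fun a b => mul_comm' a b }
  let ψ : L →* MulAut V := V.normalizerMonoidHom.comp (inclusion hn)
  have hψ : ∀ (a : L) (v : V), ψ a v = v ↔ (a : G) * v = v * a := fun a v =>
    Subtype.ext_iff.trans mul_inv_eq_iff_eq_mul
  have hker : ψ.ker = 𝒞(V).subgroupOf L := by
    ext a
    rw [MonoidHom.mem_ker, MulEquiv.ext_iff, mem_subgroupOf, mem_cent]
    exact ⟨fun h v hv => ((hψ a ⟨v, hv⟩).1 (h _)).symm, fun h v => (hψ a v).2 (h v v.2).symm⟩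
  obtain ⟨χ, hχ, hg, h⟩ := character_mulAut hk (fun w => Subtype.ext (hV.2 w w.2))
    ψ.range (by rwa [← index_ker, hker])
  have hc : IsChar L (extendByZero L fun a => χ (ψ.rangeRestrict a)) :=
    ⟨ext_mem_supp _ _, by rw [ext_coe]; exact H3.IsCharacter_comp _ hχ⟩
  have key : ∀ A ≤ L, ∃ d : ℕ, Nat.card (V ⊓ 𝒞(A) : Subgroup G) = k ^ d ∧
      ⟪extendByZero L fun a => χ (ψ.rangeRestrict a), cf1 A⟫[A] = d := fun A hA => by
    have := Fintype.ofFinite A
    let f : A →* ψ.range := ψ.rangeRestrict.comp (inclusion hA)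
    have := Fintype.ofFinite f.range
    obtain ⟨d, h1, h2⟩ := h f.range
    refine ⟨d, Eq.trans ?_ h1, ?_⟩
    · refine Nat.card_congr ⟨fun x => ⟨⟨x, x.2.1⟩, ?_⟩, fun w => ⟨w.1, w.1.2, fun a ha => ?_⟩,
        fun _ => rfl, fun _ => rfl⟩
      · rintro _ ⟨a, rfl⟩
        exact (hψ _ _).2 (x.2.2 a a.2)
      · exact (hψ ⟨a, hA ha⟩ w.1).1 (w.2 _ ⟨⟨a, ha⟩, rfl⟩)
    · have h3 := H3.classInner_comp_of_surjective _ f.rangeRestrict_surjective (fun x => χ x)
        (fun _ => 1)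
      rw [cfdot_eq_classInner]
      simp only [cf1_coe, fun x : A => H4.extendByZero_of_mem L (fun a => χ (ψ.rangeRestrict a))
        (hA x.2)]
      refine h3.trans ?_
      simp only [classInner, map_one, mul_one, h2]
      rw [← mul_assoc, inv_mul_cancel₀ (H3.card_ne_zero_complex _), one_mul]
  have hdeg : Nat.card V = k ^ deg (extendByZero L fun a => χ (ψ.rangeRestrict a)) := by
    obtain ⟨d, h1, h2⟩ := key ⊥ bot_le
    rw [cent_bot, inf_top_eq] at h1
    rw [h1, deg_eq_of_apply_one (n := d)]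
    rw [← h2, cfdot_cf1, show fs ((⊥ : Subgroup G) : Set G) = {1} by ext; simp]
    simp
  refine ⟨_, hc, key, hdeg, le_antisymm (fun x hx => ?_) fun x hx => hc.mem_cfker.2
    ⟨hx.1, ?_⟩, fun g hg' => ?_⟩
  · have hA := zpowers_le.2 hx
    refine ⟨hx.1, ?_⟩
    obtain ⟨d, h1, h2⟩ := key _ (hA.trans cfker_le)
    rw [← cfdot_Res_left, (hc.le_cfker_iff_Res (hA.trans cfker_le)).1 hA, cfdot_smul_left,
      cfdot_cf1_cf1, mul_one, ← hc.deg_cast, Nat.cast_inj] at h2
    rw [← h2, ← hdeg] at h1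
    exact zpowers_le.1 (cent_comm.1 (inf_eq_left.1 (eq_of_le_of_card_le inf_le_left h1.ge)))
  · rw [H4.extendByZero_of_mem L _ hx.1, H4.extendByZero_of_mem L _ L.one_mem]
    congr 1
    have : (⟨x, hx.1⟩ : L) ∈ ψ.ker := hker ▸ hx.2
    exact Subtype.ext (this.trans (map_one ψ).symm)
  · rw [H4.extendByZero_of_mem L _ hg', H4.extendByZero_of_mem L _ (L.pow_mem hg' k),
      ← hg (ψ.rangeRestrict ⟨g, hg'⟩), ← map_pow]
    rfl

variable {X : Type*} [Group X] [Finite X] {p n r s : ℕ} {V G A D K L M N U Y : Subgroup X}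
  {χ ψ ω l : X → ℂ} {g v x y z : X}

theorem exists_lift (hp : p.Prime) (hV : IsElementaryAbelian p V) (hn : G ≤ 𝒩(V))
    (hc : ¬ p ∣ Nat.card G) :
    ∃ χ : X → ℂ, IsChar G χ ∧ (∀ A ≤ G, ∃ d : ℕ, Nat.card (V ⊓ 𝒞(A) : Subgroup X) = p ^ d ∧
      ⟪χ, cf1 A⟫[A] = d) ∧ Nat.card V = p ^ deg χ ∧ cfker G χ = G ⊓ 𝒞(V) ∧
      ∀ g ∈ G, χ (g ^ p) = χ g :=
  brauer_lift hp hV hn fun h => hc (h.trans (relIndex_dvd_card _ _))

end Cfsg.Agent.TR
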