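import Cfsg.Agent.Lib.TR.Ppd
import Cfsg.Agent.Lib.H1.DCount

/-! # Dimension six -/

set_option autoImplicit false
set_option linter.unusedSectionVars false

namespace Cfsg.Agent.TR

open Subgroup Cfsg.Agent.H6 Cfsg.Agent.FT
open scoped commutatorElement ComplexConjugate Classical

variable {X : Type*} [Group X] [Finite X] {p n r s : ℕ} {V G A D K L M N U Y : Subgroup X}
  {χ ψ ω l : X → ℂ} {g v x y z : X}

theorem St.six_normal' (h : St p 6 V G χ) (hs : s.Prime)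
    (h13 : (s = 13 ∧ p = 3) ∨ 31 ≤ s) (hL : L ≤ G) (hY : Y ≤ L) (hc : Nat.card Y = s)
    (hs2 : ¬ s ^ 2 ∣ Nat.card L) : NormalIn Y L := by
  by_contra hn
  have hχ := h.ch.res hL
  have hk : cfker L (Res L χ) = ⊥ := by rw [h.ch.cfker_Res hL, h.ker, inf_bot_eq]
  obtain ⟨K, ψ, hYK, hKL, -, hmin, hψ, h0, h1⟩ := exists_nonlin hχ hk hs hY hc hs2 hn
  have hd : deg ψ ≤ 6 := (deg_le_of_const hχ hKL hψ h0).trans (by
    rw [← h.dg]; exact (deg_congr Res_one).le)
  have hm := card_spt_le_deg (isChar_of_Irr hψ) hYK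
    (comm_of_cyclic (cyclic_of_card_prime (hc ▸ hs)))
  have hKG := card_dvd_of_le (hKL.trans hL)
  have h3 : p = 3 → ¬ 6 ∣ Nat.card K := fun e h6 =>
    h.cop (e ▸ ((show 3 ∣ 6 by norm_num).trans h6).trans hKG)
  have h4 : p = 3 → deg ψ ≠ 6 := fun e h6 => h3 e (h6 ▸ deg_dvd_card hψ)
  have := ftc hs (by omega) hc hYK (fun e => hs2 (e.trans (card_dvd_of_le hKL))) hmin hψ h1 rfl
  generalize (spt ψ Y).card = m at this hm
  generalize deg ψ = d at this hm hd h4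
  rcases this with h5 | ⟨h5, h6⟩ | ⟨h5, h6⟩
  · omega
  · obtain rfl : m = 6 := by omega
    rcases h6 with h6 | h6
    · exact absurd h6 (by decide)
    · exact h3 (by omega) h6
  · rcases h13 with ⟨rfl, e⟩ | h13
    · have := h4 e
      have hd5 : d ≤ 5 := by omega
      have hm5 : m ≤ 5 := by omega
      have : d ^ 2 ≤ 25 := by nlinarith
      interval_cases m <;> omega
    · have hm6 : m ≤ 6 := by omega
      have : d ^ 2 ≤ 36 := by nlinarith
      interval_cases m <;> omega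

theorem St.six_normal (h : St p 6 V G χ) (hs : s.Prime) (ho : orderOf (p : ZMod s) = 3)
    (h13 : (s = 13 ∧ p = 3) ∨ 31 ≤ s) (hL : L ≤ G) (hY : Y ≤ L) (hc : Nat.card Y = s)
    (hs2 : ¬ s ^ 2 ∣ Nat.card L) (hi : V ⊓ 𝒞(Y) ≠ ⊥ → Res L χ ∉ Irr L) : NormalIn Y L :=
  h.six_normal' hs h13 hL hY hc hs2

theorem card_dvd_relIndex_sub_one (hP : A ≤ N) (hN : N ≤ L)
    (hf : ∀ x ∈ A, ∀ g ∈ L, g ∉ N → g⁻¹ * x * g ∈ N → x = 1) :
    Nat.card A ∣ N.relIndex L - 1 := by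
  have := H1.card_dvd_ncard_of_free (G := L) (P := L ⧸ N.subgroupOf L) (A.subgroupOf L)
    {(QuotientGroup.mk 1 : L ⧸ N.subgroupOf L)}ᶜ (fun k hk y hy e => by
      induction y using QuotientGroup.induction_on with | _ g
      refine hy ?_
      have h1 : (QuotientGroup.mk (k * g) : L ⧸ N.subgroupOf L) = QuotientGroup.mk 1 := e
      rw [Set.mem_singleton_iff]
      rw [eq_comm, QuotientGroup.eq, mem_subgroupOf] at h1 ⊢
      have h2 := N.mul_mem (N.inv_mem (hP hk)) h1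
      simpa using h2)
    (fun k hk y hy e => by
      induction y using QuotientGroup.induction_on with | _ g
      have h1 : (QuotientGroup.mk (k * g) : L ⧸ N.subgroupOf L) = QuotientGroup.mk g := e
      rw [eq_comm, QuotientGroup.eq, mem_subgroupOf] at h1
      refine Subtype.ext (hf _ hk g g.2 (fun hg => hy ?_) (by simpa [mul_assoc] using h1))
      rw [Set.mem_singleton_iff, eq_comm, QuotientGroup.eq, mem_subgroupOf]
      simpa using hg)
  rwa [Nat.card_congr (subgroupOfEquivOfLe (hP.trans hN)).toEquiv, Set.ncard_compl,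
    Set.ncard_singleton] at this

theorem exists_normal_not_mem {S : Subgroup X} (hs : s.Prime) (hS : Syl s S L)
    (hc : IsMulCommutative S) (hx : x ∈ S) (hx1 : x ≠ 1) (hL : L ≤ 𝒞[x]) :
    ∃ N, NormalIn N L ∧ x ∉ N ∧ (S ⊓ N = ⊥ → IsCyclic S) := by
  obtain ⟨l, hl, hlx⟩ := exists_IrrK_not_mem_cfker (NormalIn.bot S) (x := x) (by simpa using hx1)
  have hlin := isLin_of_comm (fun a ha b hb => comm_mul hc ha hb) (mem_IrrK.1 hl).1
  obtain ⟨θ, rfl⟩ := hlin.exists_hom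
  have hθ : θ ⟨x, hx⟩ ≠ 1 := fun e => hlx (hlin.mem_cfker.2 ⟨hx, by
    rw [linOfHom_apply θ hx, e, Units.val_one]⟩)
  let ϕ : S.subgroupOf L →* ℂˣ := θ.comp (subgroupOfEquivOfLe hS.le).toMonoidHom
  refine ⟨kerOf (MonoidHom.transfer ϕ), kerOf_normal, fun h => ?_, fun h => ?_⟩
  · obtain ⟨hxL, h⟩ := mem_kerOf.1 h
    rw [transfer_eq_pow_of_key ϕ (g := ⟨x, hxL⟩) hx (fun k g h => by
      rw [← map_pow]
      congr 1
      refine Subtype.ext (Subtype.ext ?_)
      have h1 : (g : X) * x ^ k = x ^ k * g :=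
        (Commute.pow_right (mem_cent1.1 (hL g.2) : Commute (g : X) x) k).eq
      simp [mul_assoc, ← h1])] at h
    have := Fact.mk hs
    obtain ⟨k, hk⟩ := hS.isPGroup ⟨x, hx⟩
    have h2 : θ ⟨x, hx⟩ ^ s ^ k = 1 := by rw [← map_pow, hk, map_one]
    have h3 : θ ⟨x, hx⟩ ^ S.relIndex L = 1 := h
    have h4 := pow_gcd_eq_one.2 ⟨h2, h3⟩
    rw [((Nat.Prime.coprime_iff_not_dvd hs).2 hS.not_dvd).pow_left k, pow_one] at h4
    exact hθ h4
  · refine isCyclic_of_injective_ringHom ((Units.coeHom ℂ).comp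
      ((MonoidHom.transfer ϕ).comp (inclusion hS.le))) ?_
    rw [injective_iff_map_eq_one]
    intro a ha
    have : (a : X) ∈ S ⊓ kerOf (MonoidHom.transfer ϕ) :=
      ⟨a.2, mem_kerOf.2 ⟨hS.le a.2, Units.ext ha⟩⟩
    rw [h, mem_bot] at this
    exact Subtype.ext this

theorem St.six_ti {S : Subgroup X} (h : St p 6 V G χ) (hs : s.Prime)
    (h13 : (s = 13 ∧ p = 3) ∨ 31 ≤ s) (hS : Syl s S G) (hc : Nat.card S = s ^ 2)
    (hcy : ¬ IsCyclic S) (hx : x ∈ S) (hx1 : x ≠ 1) : G ⊓ 𝒞[x] ≤ 𝒩(S) := by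
  have := Fact.mk hs
  have hab : IsMulCommutative S := IsPGroup.isMulCommutative_of_card_eq_prime_sq hc
  have hSL : S ≤ G ⊓ 𝒞[x] := le_inf hS.le ((comm_iff.1 hab).trans (cent_le_cent1 hx))
  have hS1 : Syl s S (G ⊓ 𝒞[x]) := hS.mono hSL inf_le_left
  obtain ⟨N, hN, hxN, hcN⟩ := exists_normal_not_mem hs hS1 hab hx hx1 inf_le_right
  have hY : Syl s (S ⊓ N) N := hS1.inf_of_le hN.norm hN.le
  have hlt : S ⊓ N < S := inf_le_left.lt_of_ne fun e => hxN (inf_eq_left.1 e hx)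
  have key : ∀ T, ⊥ < T → T < S → Nat.card T = s := fun T h1 h2 => by
    obtain ⟨i, hi, e⟩ := (Nat.dvd_prime_pow hs).1 (hc ▸ card_dvd_of_le h2.le)
    interval_cases i
    · exact absurd (card_eq_one.1 e) h1.ne'
    · simpa using e
    · exact absurd (eq_of_le_of_card_le h2.le (by rw [e, hc])) h2.ne
  have hYc := key _ (bot_lt_iff_ne_bot.2 fun e => hcy (hcN e)) hlt
  have hYN : NormalIn (S ⊓ N) N := h.six_normal' hs h13 (hN.le.trans inf_le_left) inf_le_right hYc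
    fun e => hY.not_dvd (by
      rw [← relIndex_mul_card' hY.le, hYc, sq] at e
      exact Nat.dvd_of_mul_dvd_mul_right hs.pos e)
  have hsup : zpowers x ⊔ (S ⊓ N) = S := by
    by_contra hne
    have h1 : zpowers x ⊔ (S ⊓ N) < S := (sup_le (zpowers_le.2 hx) inf_le_left).lt_of_ne hne
    have h2 := key _ ((bot_lt_iff_ne_bot.2 fun e => hcy (hcN e)).trans_le le_sup_right) h1
    have h3 := eq_of_le_of_card_le (le_sup_right : S ⊓ N ≤ zpowers x ⊔ (S ⊓ N)) (by rw [h2, hYc])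
    exact hxN (h3.ge (mem_sup_left (mem_zpowers x))).2
  rw [← hsup]
  refine H1.le_normalizer_sup (inf_le_right.trans cent1_le_norm_zpowers) fun g hg => ?_
  refine mem_normalizer_of_cj_le ?_
  have h4 := hY.cj_of_mem (hN.norm hg)
  exact hY.le_of_le_normalizer' h4.isPGroup h4.le (h4.le.trans hYN.norm)

theorem St.six_exists (h : St p 6 V G χ) (hs : s.Prime) (h13 : (s = 13 ∧ p = 3) ∨ 31 ≤ s)
    (h1 : s ∣ p ^ 6 - 1) (h2 : ¬ s ^ 2 ∣ p ^ 6 - 1)
    (h3 : ¬ s ^ 3 ∣ ∏ i : Fin 6, (p ^ 6 - p ^ (i : ℕ))) (h4 : p ^ 6 - 1 < s ^ 3) :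
    ∃ S, NormalIn S G ∧ Nat.card S = s := by
  have := Fact.mk hs
  have h3' : ¬ s ^ 3 ∣ Nat.card G := fun e => h3 (e.trans h.card_dvd_GL)
  by_cases hs2 : s ^ 2 ∣ Nat.card G
  swap
  · obtain ⟨Y, hY, hc⟩ := exists_card_eq_prime hs (h1.trans h.sub_one_dvd)
    exact ⟨Y, h.six_normal' hs h13 le_rfl hY hc hs2, hc⟩
  have hcard : ∀ S, Syl s S G → Nat.card S = s ^ 2 := fun S hS => by
    rw [hS.card_eq]
    congr 1
    have a1 := (hs.pow_dvd_iff_le_factorization (card_ne_zero G)).1 hs2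
    have a2 := mt (hs.pow_dvd_iff_le_factorization (card_ne_zero G)).2 h3'
    omega
  have hnorm : ∀ N, NormalIn N G → IsPGroup s N → N ≠ ⊥ → ∃ S, NormalIn S G ∧ Nat.card S = s :=
    fun N hN hp hb => by
      obtain ⟨S, hS, hNS⟩ := H1.exists_isSylowIn_ge hp hN.le
      have hab : IsMulCommutative S := IsPGroup.isMulCommutative_of_card_eq_prime_sq (hcard S hS)
      have a1 := (h.semiReg hN (comm_of_le hab hNS)).card_dvd (hN.le.trans h.nV)
      rw [h.cardV] at a1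
      obtain ⟨i, hi, e⟩ := (Nat.dvd_prime_pow hs).1 (hcard S hS ▸ card_dvd_of_le hNS)
      interval_cases i
      · exact absurd (card_eq_one.1 e) hb
      · exact ⟨N, hN, by simpa using e⟩
      · exact absurd (e ▸ a1) h2
  obtain ⟨v, hv, hv1⟩ := h.exists_ne
  have hG := h.card_G hv hv1
  have hH : s ∣ Nat.card (G ⊓ 𝒞[v] : Subgroup X) := by
    by_contra hn
    rw [hG] at hs2
    exact h2 ((((Nat.Prime.coprime_iff_not_dvd hs).2 hn).pow_left 2).dvd_of_dvd_mul_right hs2)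
  have hH2 : ¬ s ^ 2 ∣ Nat.card (G ⊓ 𝒞[v] : Subgroup X) := fun e => h3' (by
    rw [hG, pow_succ']; exact Nat.mul_dvd_mul h1 e)
  obtain ⟨Y, hY, hc⟩ := exists_card_eq_prime hs hH
  have hYH := h.six_normal' hs h13 inf_le_left hY hc hH2
  obtain ⟨S, hS, hYS⟩ := H1.exists_isSylowIn_ge (isPGroup_of_card_eq hc) (hY.trans inf_le_left)
  have hSc := hcard S hS
  have hab : IsMulCommutative S := IsPGroup.isMulCommutative_of_card_eq_prime_sq hSc
  by_cases hcy : IsCyclic S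
  · obtain ⟨z, hz⟩ := cyclic_iff_zpowers.1 hcy
    obtain ⟨N, a1, a2, a3⟩ := blichfeldt h.ch h.ker hs (by rw [h.dg]; omega)
      (hS.le (hz ▸ mem_zpowers z)) (by rw [← Nat.card_zpowers, hz, hSc])
    exact hnorm N a1 a2 a3
  have hti : ∀ x ∈ S, x ≠ 1 → ∀ g ∈ G, x ∈ cj g S → g ∈ 𝒩(S) := fun x hx hx1 g hg hxg => by
    have a1 := Syl.cj_of_mem hS (le_normalizer hg)
    refine mem_normalizer_of_cj_le (hS.le_of_le_normalizer' a1.isPGroup a1.le
      (le_trans (le_inf a1.le ?_) (h.six_ti hs h13 hS hSc hcy hx hx1)))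
    exact (comm_iff.1 (comm_cj.2 hab)).trans (cent_le_cent1 hxg)
  have hHN : G ⊓ 𝒞[v] ≤ G ⊓ 𝒩(S) := fun g hg => by
    obtain ⟨y, hy, hy1⟩ := (bot_or_exists_ne_one Y).resolve_left (ne_bot_of_card_prime (hc ▸ hs))
    refine ⟨hg.1, hti y (hYS hy) hy1 g hg.1 (cj_mono g hYS ?_)⟩
    rwa [hYH.cj_eq hg]
  have hSN : S ≤ G ⊓ 𝒩(S) := le_inf hS.le le_normalizer
  have a1 : Nat.card S ∣ (G ⊓ 𝒩(S)).relIndex G - 1 :=
    card_dvd_relIndex_sub_one hSN inf_le_left fun x hx g hg hgN hxg => by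
      by_contra hx1
      refine hgN ⟨hg, hti x hx hx1 g hg (mem_cj.2 ?_)⟩
      have b1 : IsPGroup s (zpowers (g⁻¹ * x * g)) := by
        have b2 := (isPGroup_cj g⁻¹ hS.isPGroup).to_le (zpowers_le.2 (mem_cj.2 (by simpa [mul_assoc] using hx) :
          g⁻¹ * x * g ∈ cj g⁻¹ S))
        exact b2
      exact hS.le_of_le_normalizer' b1 (zpowers_le.2 hxg.1) (zpowers_le.2 hxg.2) (mem_zpowers _)
  have a2 : s ∣ (G ⊓ 𝒞[v]).relIndex (G ⊓ 𝒩(S)) := by
    by_contra hn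
    have b1 := card_dvd_of_le hSN
    rw [hSc, ← relIndex_mul_card' hHN] at b1
    exact hH2 ((((Nat.Prime.coprime_iff_not_dvd hs).2 hn).pow_left 2).dvd_of_dvd_mul_left b1)
  have a3 : (G ⊓ 𝒞[v]).relIndex (G ⊓ 𝒩(S)) * (G ⊓ 𝒩(S)).relIndex G = p ^ 6 - 1 := by
    rw [relIndex_mul_relIndex _ _ _ hHN inf_le_left]
    refine Nat.eq_of_mul_eq_mul_right (Nat.card_pos (α := (G ⊓ 𝒞[v] : Subgroup X))) ?_
    rw [relIndex_mul_card' inf_le_left, hG]
  have a4 : (G ⊓ 𝒩(S)).relIndex G = 1 := by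
    have b1 := Nat.le_of_dvd (relIndex_pos _ _) a2
    have b2 := relIndex_pos (G ⊓ 𝒩(S)) G
    by_contra hn
    have b3 := Nat.le_of_dvd (by omega) a1
    rw [hSc] at b3
    have b4 := Nat.mul_le_mul b1 (show s ^ 2 ≤ (G ⊓ 𝒩(S)).relIndex G by omega)
    rw [a3, ← pow_succ'] at b4
    exact absurd h4 (not_lt.2 b4)
  refine hnorm S ⟨hS.le, (relIndex_eq_one.1 a4).trans inf_le_right⟩ hS.isPGroup fun e => ?_
  rw [e, card_bot] at hSc
  exact (Nat.one_lt_pow two_ne_zero hs.one_lt).ne hSc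

theorem St.six_aux (h : St p 6 V G χ) (hs : s.Prime) (ho : orderOf (p : ZMod s) = 3)
    (ho7 : orderOf (p : ZMod 7) = 6) (h7 : ¬ 7 ∣ s - 1) {S : Subgroup X} (hS : NormalIn S G)
    (hc : Nat.card S = s) : Gam V G := by
  by_contra hG
  have hp7 : Nat.Prime 7 := by norm_num
  obtain ⟨h49, R, hR, hRc, hRn⟩ := h.ppd hG (by norm_num) hp7 ho7
  have hab := comm_of_cyclic (cyclic_of_card_prime (hc ▸ hs))
  have hRS : R ≤ 𝒞(S) := by
    have a1 := relIndex_cent_dvd_pred hs hc (hR.trans hS.norm)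
    have a2 : (𝒞(S)).relIndex R ∣ 7 := hRc ▸ relIndex_dvd_card _ _
    exact relIndex_eq_one.1 (((Nat.dvd_prime hp7).1 a2).resolve_right fun e => h7 (e ▸ a1))
  obtain ⟨K, ψ, hRK, hKG, hmin, hgen, hψ, h0, h1⟩ := exists_nonlin h.ch h.ker hp7 hR hRc h49 hRn
  have hK : K ≤ 𝒞(S) :=
    (hmin _ ((NormalIn.refl G).inf_centralizer hS.norm) (le_inf hR hRS)).trans inf_le_right
  obtain ⟨l, hl, hd⟩ := deg_le_mult h.ch hKG hS.le hab hK hψ h0
  have hd2 : deg ψ ≤ 2 := by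
    by_cases e : l = cf1 S
    · have a1 := h.mult_cf1 hS.le
      rw [(h.semiReg hS hab).cent le_rfl (ne_bot_of_card_prime (hc ▸ hs)), card_bot, eq_comm,
        Nat.pow_eq_one] at a1
      have a2 := a1.resolve_left h.hp.one_lt.ne'
      rw [e] at hd
      omega
    · have a1 := h.mult_le hS.le hs hc hl e
      rw [ho] at a1
      omega
  have hm := card_spt_le_deg (isChar_of_Irr hψ) hRK
    (comm_of_cyclic (cyclic_of_card_prime (hRc ▸ hp7)))
  have := ftc hp7 (by norm_num) hRc hRK (fun e => h49 (e.trans (card_dvd_of_le hKG))) hgen hψ h1 rfl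
  generalize (spt ψ R).card = m at this hm
  have hm2 : m ≤ 2 := by omega
  interval_cases m <;> omega

theorem orderOf_eq_of_check {m a k : ℕ} [NeZero m] (hk : 0 < k) (h1 : (a : ZMod m) ^ k = 1)
    (h2 : ∀ j < k, 0 < j → (a : ZMod m) ^ j ≠ 1) : orderOf (a : ZMod m) = k :=
  (orderOf_eq_iff hk).2 ⟨h1, h2⟩

theorem St.six (h : St p 6 V G χ) (hp : p = 3 ∨ p = 5 ∨ p = 17) : Gam V G := by
  rcases hp with rfl | rfl | rfl
  · obtain ⟨S, h1, h2⟩ := h.six_exists (s := 13) (by norm_num) (by norm_num) (by norm_num)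
      (by norm_num) (by decide +kernel) (by norm_num)
    exact h.six_aux (s := 13) (by norm_num) (orderOf_eq_of_check (by norm_num) (by decide) (by decide))
      (orderOf_eq_of_check (by norm_num) (by decide) (by decide)) (by norm_num) h1 h2
  · obtain ⟨S, h1, h2⟩ := h.six_exists (s := 31) (by norm_num) (by norm_num) (by norm_num)
      (by norm_num) (by decide +kernel) (by norm_num)
    exact h.six_aux (s := 31) (by norm_num) (orderOf_eq_of_check (by norm_num) (by decide) (by decide))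
      (orderOf_eq_of_check (by norm_num) (by decide) (by decide)) (by norm_num) h1 h2
  · obtain ⟨S, h1, h2⟩ := h.six_exists (s := 307) (by norm_num) (by norm_num) (by norm_num)
      (by norm_num) (by decide +kernel) (by norm_num)
    exact h.six_aux (s := 307) (by norm_num)
      (orderOf_eq_of_check (by norm_num) (by decide +kernel) (by decide +kernel))
      (orderOf_eq_of_check (by norm_num) (by decide) (by decide)) (by norm_num) h1 h2

end Cfsg.Agent.TR
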