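import Cfsg.Agent.Lib.TR.Spec
import Cfsg.Agent.Lib.FT.BG14b
import Cfsg.Agent.Lib.FT.CF4

/-! # Dimension two -/

set_option autoImplicit false
set_option linter.unusedSectionVars false

namespace Cfsg.Agent.TR

open Subgroup Cfsg.Agent.H6 Cfsg.Agent.FT
open scoped commutatorElement ComplexConjugate Classical

variable {X : Type*} [Group X] [Finite X] {p n r s : ℕ} {V G A D K L M N U Y : Subgroup X}
  {χ ψ ω l : X → ℂ} {g v x y z : X}

theorem relIndex_dvd_two_of (h : ∀ x ∈ N, ∀ y ∈ N, x ∉ A → y ∉ A → x⁻¹ * y ∈ A) :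
    A.relIndex N ∣ 2 := by
  rw [relIindex_dvd_two_iff']
  by_cases hN : N ≤ A
  · exact ⟨1, one_mem _, fun b hb => Or.inr (hN hb)⟩
  obtain ⟨x, hx, hxA⟩ := SetLike.not_le_iff_exists.1 hN
  exact ⟨x⁻¹, inv_mem hx, fun b hb => (em (b ∈ A)).symm.imp_left (h x hx b hb hxA)⟩

theorem normalIn_of_relIndex_dvd_two (hA : A ≤ N) (h : A.relIndex N ∣ 2) : NormalIn A N := by
  rcases (Nat.dvd_prime Nat.prime_two).1 h with e | e
  · rw [le_antisymm hA (relIndex_eq_one.1 e)]; exact NormalIn.refl N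
  · exact NormalIn.of_subgroupOf hA (normal_of_index_eq_two e)

theorem ncard_diff_add (h : A ≤ N) : ((N : Set X) \ A).ncard + Nat.card A = Nat.card N :=
  Set.ncard_diff_add_ncard_of_subset (s := (A : Set X)) (t := (N : Set X)) h

namespace St

variable (h : St p 2 V G χ)
include h

theorem comm_of_not_irr (hK : K ≤ G) (hi : Res K χ ∉ Irr K) : IsMulCommutative K :=
  comm_of_lin h.ch h.ker hK fun ψ hψ h0 => by
    have h1 := deg_le_of_const h.ch hK hψ h0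
    have h2 := Irr_deg_pos hψ
    have h3 : ¬ deg χ ≤ deg ψ := fun e => hi (Res_eq_of_const h.ch hK hψ h0 e ▸ hψ)
    have := h.dg
    omega

theorem cent1_comm (hg : g ∈ G) (hz : g ∉ Zc G) : IsMulCommutative (G ⊓ 𝒞[g] : Subgroup X) :=
  h.comm_of_not_irr inf_le_left fun hi =>
    hz ⟨hg, (h.scalar inf_le_left hi hg (le_cent1_iff.1 inf_le_right)).2⟩

theorem cent1_eq (hg : g ∈ G) (hz : g ∉ Zc G) (hx : x ∈ G ⊓ 𝒞[g]) (hxz : x ∉ Zc G) :
    G ⊓ 𝒞[x] = G ⊓ 𝒞[g] :=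
  le_antisymm (fun _ hy => ⟨hy.1, mem_cent1.2
      (comm_mul (h.cent1_comm hx.1 hxz) hy ⟨hg, mem_cent1_comm.1 hx.2⟩)⟩)
    fun _ hy => ⟨hy.1, mem_cent1.2 (comm_mul (h.cent1_comm hg hz) hy hx)⟩

theorem two_conj (hA : A ≤ G) (hc : IsMulCommutative A) (hg : g ∈ A) (hx : x ∈ G) (hy : y ∈ G)
    (h1 : x * g * x⁻¹ ∈ A) (h2 : y * g * y⁻¹ ∈ A) (n1 : x * g * x⁻¹ ≠ g) (n2 : y * g * y⁻¹ ≠ g) :
    x * g * x⁻¹ = y * g * y⁻¹ := by
  have hχ1 : χ 1 = 2 := by rw [← h.ch.deg_cast, h.dg]; norm_num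
  obtain ⟨l, hl, h0⟩ := h.ch.exists_Irr_under (fun e => by rw [e] at hχ1; simp at hχ1) hA
  have l1 : IsLin A l := isLin_of_comm (fun _ ha _ hb => comm_mul hc ha hb) hl
  have m1 : IsLin A (Res A χ - l) := ⟨(h.ch.res hA).sub_Irr hl (by rwa [cfdot_Res_left]), by
    rw [Pi.sub_apply, Res_of_mem (one_mem A), hχ1, l1.2]; norm_num⟩
  have hs : ∀ a ∈ A, χ a = l a + (Res A χ - l) a := fun a ha => by
    rw [Pi.sub_apply, Res_of_mem ha]; ring
  generalize Res A χ - l = m at m1 hs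
  have inj : ∀ a ∈ A, ∀ b ∈ A, l a = l b → m a = m b → a = b := fun a ha b hb e1 e2 => by
    have hab := mul_mem ha (inv_mem hb)
    rw [← mul_inv_eq_one, ← mem_bot, ← h.ker, h.ch.mem_cfker]
    refine ⟨hA hab, ?_⟩
    rw [hs _ hab, l1.map_mul ha (inv_mem hb), m1.map_mul ha (inv_mem hb), l1.map_inv hb,
      m1.map_inv hb, e1, e2, mul_inv_cancel₀ (l1.ne_zero hb), mul_inv_cancel₀ (m1.ne_zero hb), hχ1]
    norm_num
  have key : ∀ x ∈ G, x * g * x⁻¹ ∈ A → x * g * x⁻¹ ≠ g →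
      l (x * g * x⁻¹) = m g ∧ m (x * g * x⁻¹) = l g := fun x hx h1 n1 => by
    have e1 := h.ch.inv x hx g
    have e2 := h.ch.inv x hx (g * g)
    rw [show x * (g * g) * x⁻¹ = x * g * x⁻¹ * (x * g * x⁻¹) by group, hs _ (mul_mem h1 h1),
      hs _ (mul_mem hg hg), l1.map_mul h1 h1, m1.map_mul h1 h1, l1.map_mul hg hg,
      m1.map_mul hg hg] at e2
    rw [hs _ h1, hs _ hg] at e1
    have e3 : (l (x * g * x⁻¹) - l g) * (l (x * g * x⁻¹) - m g) = 0 := by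
      linear_combination (1 / 2 : ℂ) * e2 + (l (x * g * x⁻¹) - (1 / 2 : ℂ) *
        (l (x * g * x⁻¹) + m (x * g * x⁻¹) + l g + m g)) * e1
    rcases mul_eq_zero.1 e3 with e4 | e4
    · exact (n1 (inj _ h1 _ hg (sub_eq_zero.1 e4) (by linear_combination e1 - e4))).elim
    · exact ⟨sub_eq_zero.1 e4, by linear_combination e1 - e4⟩
  obtain ⟨a1, a2⟩ := key x hx h1 n1
  obtain ⟨b1, b2⟩ := key y hy h2 n2
  exact inj _ h1 _ h2 (a1.trans b1.symm) (a2.trans b2.symm)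

theorem relIndex_norm (hg : g ∈ G) (hz : g ∉ Zc G) :
    (G ⊓ 𝒞[g]).relIndex (G ⊓ 𝒩(G ⊓ 𝒞[g])) ∣ 2 :=
  relIndex_dvd_two_of fun x hx y hy hx' hy' => by
    have hg' : g ∈ G ⊓ 𝒞[g] := ⟨hg, mem_cent1.2 rfl⟩
    have := h.two_conj inf_le_left (h.cent1_comm hg hz) hg' (inv_mem hx.1) (inv_mem hy.1)
      (H6.conj_mem_of_mem_normalizer (inv_mem hx.2) hg')
      (H6.conj_mem_of_mem_normalizer (inv_mem hy.2) hg')
      (fun e => hx' (inv_mem_iff.1 ⟨G.inv_mem hx.1, mem_cent1.2 (mul_inv_eq_iff_eq_mul.1 e)⟩))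
      (fun e => hy' (inv_mem_iff.1 ⟨G.inv_mem hy.1, mem_cent1.2 (mul_inv_eq_iff_eq_mul.1 e)⟩))
    have hm : y * x⁻¹ ∈ G ⊓ 𝒞[g] := ⟨G.mul_mem hy.1 (G.inv_mem hx.1), mem_cent1.2 (by
      calc y * x⁻¹ * g = y * (x⁻¹ * g * x⁻¹⁻¹) * x⁻¹ := by group
        _ = _ := by rw [this]; group)⟩
    simpa [mul_assoc] using H6.conj_mem_of_mem_normalizer' hx.2 hm

theorem gam_of_index (hp : p ≠ 2) (hA : A ≤ G) (hc : IsMulCommutative A) (hi : A.relIndex G ∣ 2) :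
    Gam V G := by
  have hn := normalIn_of_relIndex_dvd_two hA hi
  refine ⟨A, hn, hc, h.irred_of_card (h.semiReg hn hc) fun d h1 h2 h3 => ?_⟩
  obtain rfl : d = 1 := by omega
  have p3 : 3 ≤ p := by have := h.hp.two_le; omega
  rw [pow_one] at h3
  have e1 := Nat.le_of_dvd (by omega) h3
  have e2 := Nat.le_of_dvd (H9.card_pos' G) h.sub_one_dvd
  have e3 := H1.card_mul_relIndex hA
  have e4 := Nat.mul_le_mul e1 (Nat.le_of_dvd two_pos hi)
  obtain ⟨k, rfl⟩ := Nat.exists_eq_add_of_le p3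
  have : (3 + k) ^ 2 = k ^ 2 + 6 * k + 9 := by ring
  omega

omit h in
theorem conj_mem_Zc (hx : x ∈ G) : x * g * x⁻¹ ∈ Zc G ↔ g ∈ Zc G := (Zc_normal G).conj_mem_iff hx

theorem ncard_U (hg : g ∈ G) (hz : g ∉ Zc G) : ∃ e f i : ℕ, 2 ≤ e ∧ f ∣ 2 ∧
    Nat.card (G ⊓ 𝒞[g] : Subgroup X) = Nat.card (Zc G) * e ∧ (G ⊓ 𝒞[g]).relIndex G = f * i ∧
    (classSupport ((G ⊓ 𝒞[g] : Subgroup X) \ Zc G) G).ncard + Nat.card (Zc G) * i =
      Nat.card (Zc G) * e * i := by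
  have hZ : Zc G ≤ G ⊓ 𝒞[g] := inf_le_inf_left _ (cent_le_cent1 hg)
  have e1 := H1.card_mul_relIndex hZ
  refine ⟨(Zc G).relIndex (G ⊓ 𝒞[g]), _, (G ⊓ 𝒩(G ⊓ 𝒞[g])).relIndex G, ?_, h.relIndex_norm hg hz,
    e1.symm, (relIndex_mul_relIndex _ _ _ (le_inf inf_le_left le_normalizer) inf_le_left).symm, ?_⟩
  · have h0 := relIndex_ne_zero' (Zc G) (G ⊓ 𝒞[g])
    have h1 : (Zc G).relIndex (G ⊓ 𝒞[g]) ≠ 1 := fun e =>
      hz (relIndex_eq_one.1 e ⟨hg, mem_cent1.2 rfl⟩)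
    omega
  rw [ncard_classSupport_of_memJ (L := G ⊓ 𝒩(G ⊓ 𝒞[g])) inf_le_left, e1, ← add_mul]
  · exact congrArg (· * _) (ncard_diff_add hZ)
  rintro a ⟨ha, haz⟩ x hx
  refine ⟨fun ⟨h1, h2⟩ => ⟨hx, ?_⟩, fun h1 =>
    ⟨H6.conj_mem_of_mem_normalizer h1.2 ha, fun e => haz ((conj_mem_Zc hx).1 e)⟩⟩
  refine cj_eq_self_iff.1 ?_
  conv_lhs => rw [← h.cent1_eq hg hz ha haz]
  rw [cj_inf, cj_eq_self_of_mem hx, cj_centralizer_singleton, h.cent1_eq hg hz h1 h2]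

theorem mem_U (hg : g ∈ G) (hz : g ∉ Zc G) (hy : y ∈ G) (hyz : y ∉ Zc G)
    (h1 : x ∈ classSupport ((G ⊓ 𝒞[g] : Subgroup X) \ Zc G) G)
    (h2 : x ∈ classSupport ((G ⊓ 𝒞[y] : Subgroup X) \ Zc G) G) :
    y ∈ classSupport ((G ⊓ 𝒞[g] : Subgroup X) \ Zc G) G := by
  obtain ⟨a, ⟨ha, haz⟩, u, hu, rfl⟩ := h1
  obtain ⟨b, ⟨hb, hbz⟩, w, hw, e⟩ := h2
  have hm := mul_mem (inv_mem hu) hw
  refine ⟨u⁻¹ * w * y * (u⁻¹ * w)⁻¹, ⟨?_, fun e => hyz ((conj_mem_Zc hm).1 e)⟩, (u⁻¹ * w)⁻¹,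
    inv_mem hm, by group⟩
  rw [← h.cent1_eq hg hz ha haz]
  refine ⟨G.mul_mem (G.mul_mem hm hy) (G.inv_mem hm), mem_cent1.2 ?_⟩
  have e1 : a = u⁻¹ * w * b * (u⁻¹ * w)⁻¹ := by
    rw [show u⁻¹ * w * b * (u⁻¹ * w)⁻¹ = u⁻¹ * (w * b * w⁻¹) * u by group, ← e]; group
  have e2 := mem_cent1.1 hb.2
  rw [e1]
  calc _ = u⁻¹ * w * (y * b) * (u⁻¹ * w)⁻¹ := by group
    _ = _ := by rw [← e2]; group

theorem size_U (hg : g ∈ G) (hz : g ∉ Zc G) {u : ℕ}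
    (hu : u = (classSupport ((G ⊓ 𝒞[g] : Subgroup X) \ Zc G) G).ncard) :
    4 * u = Nat.card G ∨ (Nat.card G ≤ 3 * u ∧ 2 * u ≤ Nat.card G) ∨ 2 * Nat.card G ≤ 3 * u := by
  obtain ⟨e, f, i, h1, h2, h3, h4, h5⟩ := h.ncard_U hg hz
  have h6 := H1.card_mul_relIndex (inf_le_left : G ⊓ 𝒞[g] ≤ G)
  rw [h3, h4] at h6
  rw [← hu, mul_right_comm] at h5
  rw [show Nat.card (Zc G) * e * (f * i) = f * (Nat.card (Zc G) * i * e) by ring] at h6
  generalize Nat.card (Zc G) * i = m at h5 h6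
  rcases h1.eq_or_lt with rfl | h1
  · rcases (Nat.dvd_prime Nat.prime_two).1 h2 with rfl | rfl <;> omega
  · have := Nat.mul_le_mul_left m h1
    rcases (Nat.dvd_prime Nat.prime_two).1 h2 with rfl | rfl <;> omega

theorem cent1_le (hp : p ≠ 2) (hG : ¬ Gam V G) (hg : g ∈ G) (hz : g ∉ Zc G) :
    ∃ e, e ≤ 5 ∧ Nat.card (G ⊓ 𝒞[g] : Subgroup X) = Nat.card (Zc G) * e := by
  obtain ⟨e, f, i, h1, h2, h3, h4, h5⟩ := h.ncard_U hg hz
  refine ⟨e, le_of_not_gt fun h6 => ?_, h3⟩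
  have h7 := H1.card_mul_relIndex (inf_le_left : G ⊓ 𝒞[g] ≤ G)
  have h8 : ¬ f * i ∣ 2 := fun e => hG (h.gam_of_index hp inf_le_left (h.cent1_comm hg hz) (h4 ▸ e))
  have h9 : f * i ≠ 0 := h4 ▸ relIndex_ne_zero' _ _
  rw [h3, h4] at h7
  let U : X → Set X := fun g => classSupport ((G ⊓ 𝒞[g] : Subgroup X) \ Zc G) G
  have hU : ∀ g, U g ⊆ (G : Set X) \ Zc G := by
    rintro g _ ⟨a, ⟨ha, haz⟩, u, hu, rfl⟩
    exact ⟨mul_mem (mul_mem hu ha.1) (inv_mem hu), fun e => haz ((conj_mem_Zc hu).1 e)⟩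
  have hd : ∀ g ∈ (G : Set X) \ Zc G, ∀ y ∈ (G : Set X) \ Zc G, y ∉ U g → Disjoint (U g) (U y) :=
    fun g hg y hy hn => Set.disjoint_left.2 fun x h1 h2 => hn (h.mem_U hg.1 hg.2 hy.1 hy.2 h1 h2)
  have hc : ((G : Set X) \ Zc G).ncard + Nat.card (Zc G) = Nat.card G :=
    ncard_diff_add inf_le_left
  have hz0 := H9.card_pos' (Zc G)
  have hr : ((U g).ncard < ((G : Set X) \ Zc G).ncard ∧
      4 * ((G : Set X) \ Zc G).ncard < 4 * (U g).ncard + Nat.card G) ∨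
      (2 * (U g).ncard + Nat.card G < 2 * ((G : Set X) \ Zc G).ncard ∧
        12 * ((G : Set X) \ Zc G).ncard < 12 * (U g).ncard + 7 * Nat.card G) := by
    change (U g).ncard + _ = _ at h5
    have i2 : 2 ≤ i := by
      by_contra! i2
      interval_cases i
      · exact h9 (mul_zero _)
      · exact h8 (by simpa using h2)
    have a1 := Nat.mul_le_mul_left (Nat.card (Zc G)) i2
    have a2 := Nat.mul_le_mul_left (Nat.card (Zc G) * i) h6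
    rw [mul_right_comm] at h5
    rw [show Nat.card (Zc G) * e * (f * i) = f * (Nat.card (Zc G) * i * e) by ring] at h7
    rcases (Nat.dvd_prime Nat.prime_two).1 h2 with rfl | rfl <;> omega
  have hg' : g ∈ (G : Set X) \ Zc G := ⟨hg, hz⟩
  obtain ⟨x, hx, hx1⟩ := Set.exists_mem_notMem_of_ncard_lt_ncard
    (show (U g).ncard < ((G : Set X) \ Zc G).ncard by omega)
  have s1 := h.size_U hx.1 hx.2 (u := (U x).ncard) rfl
  have c1 := Set.ncard_union_eq (hd g hg' x hx hx1)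
  have l1 := Set.ncard_le_ncard (Set.union_subset (hU g) (hU x))
  obtain ⟨y, hy, hy1⟩ := Set.exists_mem_notMem_of_ncard_lt_ncard
    (show (U g ∪ U x).ncard < ((G : Set X) \ Zc G).ncard by omega)
  have s2 := h.size_U hy.1 hy.2 (u := (U y).ncard) rfl
  have c2 := Set.ncard_union_eq (Set.disjoint_union_left.2
    ⟨hd g hg' y hy fun e => hy1 (Or.inl e), hd x hx y hy fun e => hy1 (Or.inr e)⟩)
  have l2 := Set.ncard_le_ncard (Set.union_subset (Set.union_subset (hU g) (hU x)) (hU y))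
  obtain ⟨w, hw, hw1⟩ := Set.exists_mem_notMem_of_ncard_lt_ncard
    (show (U g ∪ U x ∪ U y).ncard < ((G : Set X) \ Zc G).ncard by omega)
  have s3 := h.size_U hw.1 hw.2 (u := (U w).ncard) rfl
  have c3 := Set.ncard_union_eq (Set.disjoint_union_left.2 ⟨Set.disjoint_union_left.2
    ⟨hd g hg' w hw fun e => hw1 (Or.inl (Or.inl e)), hd x hx w hw fun e => hw1 (Or.inl (Or.inr e))⟩,
    hd y hy w hw fun e => hw1 (Or.inr e)⟩)
  have l3 := Set.ncard_le_ncard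
    (Set.union_subset (Set.union_subset (Set.union_subset (hU g) (hU x)) (hU y)) (hU w))
  omega

theorem card_Zc_le (hp : p ≠ 2) (hG : ¬ Gam V G) : Nat.card (Zc G) ≤ p - 1 := by
  have hi : Res G χ ∈ Irr G := by
    by_contra hi
    exact hG (h.gam_of_index hp le_rfl (h.comm_of_not_irr le_rfl hi) (by simp))
  obtain ⟨z, hz⟩ := (cyclic_iff_zpowers (H := Zc G)).1
    (h.cyclic inf_le_left (Zc_comm G) (h.semiReg (Zc_normal G) (Zc_comm G)))
  have hz' : z ∈ Zc G := hz ▸ mem_zpowers z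
  rw [← hz, Nat.card_zpowers]
  exact Nat.le_of_dvd (by have := h.hp.two_le; omega)
    (orderOf_dvd_of_pow_eq_one (h.scalar le_rfl hi hz'.1 hz'.2).1)

theorem small_of (hE : ∀ g ∈ G, g ∉ Zc G →
      Nat.card (G ⊓ 𝒞[g] : Subgroup X) ≤ Nat.card (Zc G) * n) (hn : 0 < n)
    (hZ : Nat.card (Zc G) ≤ p - 1) (hb : (1 + n) * (p - 1) + n ≤ p ^ 2) : Small V G := by
  intro v hv hv1
  have hz0 := H9.card_pos' (Zc G)
  have k1 : kc G < (1 + n) * Nat.card (Zc G) := by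
    refine lt_of_mul_lt_mul_right ?_ (Nat.zero_le (Nat.card G))
    rw [kc_mul_card, ← Finset.sum_filter_add_sum_filter_not _ (· ∈ Zc G)]
    have a1 : ∑ g ∈ fs (G : Set X) with g ∈ Zc G, Nat.card (G ⊓ 𝒞[g] : Subgroup X) ≤
        Nat.card (Zc G) * Nat.card G := by
      refine (Finset.sum_le_card_nsmul _ _ (Nat.card G) fun g _ => card_le_of_le inf_le_left).trans
        (Nat.mul_le_mul_right _ ?_)
      rw [← card_fs_subgroup]
      exact Finset.card_le_card fun g hg => mem_fs.2 (Finset.mem_filter.1 hg).2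
    have a2 : ∑ g ∈ fs (G : Set X) with g ∉ Zc G, Nat.card (G ⊓ 𝒞[g] : Subgroup X) <
        Nat.card G * (Nat.card (Zc G) * n) := by
      refine (Finset.sum_le_card_nsmul _ _ (Nat.card (Zc G) * n) fun g hg => hE g
        (mem_fs.1 (Finset.mem_filter.1 hg).1) (Finset.mem_filter.1 hg).2).trans_lt
        (Nat.mul_lt_mul_of_pos_right ?_ (by positivity))
      rw [← card_fs_subgroup]
      exact Finset.card_lt_card (Finset.filter_ssubset.2 ⟨1, mem_fs.2 (one_mem G), by simp⟩)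
    nlinarith
  have k2 : Nat.card (G ⊓ 𝒞[v] : Subgroup X) ≤ n := by
    by_cases h1 : G ⊓ 𝒞[v] = ⊥
    · rw [h1, card_bot]; exact hn
    have hs := semiReg_iff.1 (h.semiReg (Zc_normal G) (Zc_comm G))
    have hi : G ⊓ 𝒞[v] ⊓ Zc G = ⊥ := eq_bot_iff.2 fun x hx => by_contra fun hx1 =>
      hv1 (hs x hx.2 hx1 v hv (mem_cent1.1 hx.1.2))
    have hc : IsMulCommutative (G ⊓ 𝒞[v] : Subgroup X) := h.comm_of_not_irr inf_le_left fun hi => by
      obtain ⟨d, e1, e2⟩ := h.fx (G ⊓ 𝒞[v]) inf_le_left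
      have hd : d ≠ 0 := fun e => by
        rw [e, pow_zero, card_eq_one] at e1
        exact hv1 (mem_bot.1 (e1 ▸ ⟨hv, le_cent1_iff.1 inf_le_right⟩))
      have := congrFun (eq_of_cfdot_Irr_ne_zero hi (cf1_mem_Irr _) (by
        rw [cfdot_Res_left, e2]; exact_mod_cast hd)) 1
      rw [Res_of_mem (one_mem _), ← h.ch.deg_cast, h.dg, (isLin_cf1 _).2] at this
      norm_num at this
    obtain ⟨⟨x, hx⟩, hx1⟩ := ne_bot_iff_exists_ne_one.1 h1
    have hxz : x ∉ Zc G := fun e => hx1 (Subtype.ext (mem_bot.1 (hi ▸ ⟨hx, e⟩)))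
    have e1 := (SDP.of_norm (K := G ⊓ 𝒞[v]) (W := Zc G)
      (inf_le_right.trans ((cent_le_cent inf_le_left).trans cent_le_norm)) hi).card_mul
    have e2 : Nat.card (G ⊓ 𝒞[v] ⊔ Zc G : Subgroup X) ≤ Nat.card (G ⊓ 𝒞[x] : Subgroup X) :=
      card_le_of_le (sup_le (fun y hy => ⟨hy.1, mem_cent1.2 (comm_mul hc hy hx)⟩)
        (inf_le_inf_left _ (cent_le_cent1 hx.1)))
    have e3 := hE x hx.1 hxz
    rw [← e1, mul_comm] at e2
    exact Nat.le_of_mul_le_mul_left (e2.trans e3) hz0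
  have k3 := kc_le_card (G ⊓ 𝒞[v])
  have k4 := Nat.mul_le_mul_left (1 + n) hZ
  rw [h.cardV]
  omega

end St

theorem St.two (h : St p 2 V G χ) (hp : p ≠ 2) : Gam V G ∨ Small V G := by
  refine (em _).imp_right fun hG => ?_
  have hZ := h.card_Zc_le hp hG
  obtain rfl | h3 := eq_or_ne p 3
  · have h16 : Nat.card G ∣ 2 ^ 4 := Nat.Coprime.dvd_of_dvd_mul_right
      ((Nat.Prime.coprime_iff_not_dvd Nat.prime_three).2 h.cop).symm h.card_dvd_GL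
    obtain ⟨k, -, hk⟩ := (Nat.dvd_prime_pow Nat.prime_two).1 h16
    have hlt : Zc G < G := lt_of_le_of_ne inf_le_left fun e =>
      hG (h.gam_of_index hp le_rfl (e ▸ Zc_comm G) (by simp))
    obtain ⟨g, hg, hz, -, hc⟩ := H9.exists_mem_commutator_mem_of_lt (IsPGroup.of_card hk) le_rfl
      (Zc_normal G).2 le_normalizer hlt
    refine (hG (h.gam_of_index hp inf_le_left (h.cent1_comm hg hz)
      (relIndex_dvd_two_of fun x hx y hy hx' hy' => ⟨G.mul_mem (G.inv_mem hx) hy, mem_cent1.2 ?_⟩))).elim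
    have hne : ∀ x ∈ G, x ∉ G ⊓ 𝒞[g] → ⁅x, g⁆ ≠ 1 := fun x hx hx' e =>
      hx' ⟨hx, mem_cent1.2 (commutatorElement_eq_one_iff_mul_comm.1 e)⟩
    have e : ⁅x, g⁆ = ⁅y, g⁆ := by
      by_contra hn
      have : ({1, ⁅x, g⁆, ⁅y, g⁆} : Set X).ncard ≤ Nat.card (Zc G) :=
        Set.ncard_le_ncard (t := (Zc G : Set X)) (by
          rintro _ (rfl | rfl | rfl)
          exacts [one_mem _, hc x hx, hc y hy])
      rw [Set.ncard_eq_three.2 ⟨_, _, _, (hne x hx hx').symm, (hne y hy hy').symm, hn, rfl⟩] at this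
      omega
    rw [commutatorElement_def, commutatorElement_def, mul_left_inj] at e
    calc x⁻¹ * y * g = x⁻¹ * (y * g * y⁻¹) * y := by group
      _ = _ := by rw [← e]; group
  obtain rfl | h5 := eq_or_ne p 5
  · refine h.small_of (n := 4) (fun g hg hz => ?_) (by norm_num) hZ (by norm_num)
    obtain ⟨e, h1, h2⟩ := h.cent1_le hp hG hg hz
    have : e ≠ 5 := fun e5 => h.cop (((e5 ▸ dvd_mul_left _ _ : 5 ∣ Nat.card (Zc G) * e).trans
      h2.symm.dvd).trans (card_dvd_of_le inf_le_left))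
    exact h2 ▸ Nat.mul_le_mul_left _ (by omega)
  refine h.small_of (n := 5) (fun g hg hz => ?_) (by norm_num) hZ ?_
  · obtain ⟨e, h1, h2⟩ := h.cent1_le hp hG hg hz
    exact h2 ▸ Nat.mul_le_mul_left _ h1
  · have := h.hp.five_le_of_ne_two_of_ne_three hp h3
    obtain ⟨k, rfl⟩ : ∃ k, p = k + 6 := ⟨p - 6, by omega⟩
    rw [show k + 6 - 1 = k + 5 by omega]
    nlinarith

end Cfsg.Agent.TR
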