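import Cfsg.Agent.Lib.TR.Lift
import Cfsg.Agent.Lib.TR.Six
import Cfsg.Agent.Lib.TR.Four
import Cfsg.Agent.Lib.TR.Two
import Cfsg.Agent.Lib.TR.Even
import Cfsg.Agent.Lib.TR.Gamma

/-! # The class number of a transitive coprime affine group -/

set_option autoImplicit false
set_option linter.unusedSectionVars false

namespace Cfsg.Agent.TR

open Subgroup Cfsg.Agent.H6 Cfsg.Agent.FT
open scoped commutatorElement ComplexConjugate Classical

variable {X : Type*} [Group X] [Finite X] {p n r s : ℕ} {V G A D K L M N U Y : Subgroup X}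
  {χ ψ ω l : X → ℂ} {g v x y z : X}

theorem St.gam_or_small (h : St p n V G χ) : Gam V G ∨ Small V G := by
  obtain rfl | hn := (Nat.succ_le_of_lt h.npos).eq_or_lt
  · refine Or.inl ⟨⊥, NormalIn.bot G, inferInstance, fun U hU _ => ?_⟩
    have h1 := card_dvd_of_le hU
    rw [h.cardV, Nat.succ_eq_add_one, zero_add, pow_one, Nat.dvd_prime h.hp] at h1
    refine h1.imp (card_eq_one.1) fun e => eq_of_le_of_card_le hU ?_
    rw [e, h.cardV, Nat.succ_eq_add_one, zero_add, pow_one]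
  obtain rfl | hp := eq_or_ne p 2
  · exact Or.inl (h.even hn)
  obtain rfl | hn := (Nat.succ_le_of_lt hn).eq_or_lt
  · exact h.two hp
  by_cases hG : Gam V G
  · exact Or.inl hG
  have := nt_odd h.hp hp hn fun r hr ho => ⟨by
    rcases h.ppd_le hG (by omega) hr ho with h1 | h1 <;> omega,
    fun h1 => (h.ppd hG (by omega) hr ho).1 (h1.trans h.sub_one_dvd)⟩
  rcases this with ⟨rfl, rfl⟩ | ⟨h1, rfl⟩ | ⟨rfl, rfl⟩
  · exact h.four
  · exact Or.inl (h.six h1)
  · exact Or.inl h.eighteen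

theorem St.main (h : St p n V G χ) (hv : v ∈ V) (hv1 : v ≠ 1) :
    kc G + kc (G ⊓ 𝒞[v]) ≤ Nat.card V ∧ (kc G + kc (G ⊓ 𝒞[v]) = Nat.card V →
      IsCyclic G ∨ (Nat.card V = 8 ∧ Nat.card G = 21) ∨ (Nat.card V = 9 ∧ Nat.card G = 16)) := by
  rcases h.gam_or_small with h1 | h1
  · exact h.gamma h1 hv hv1
  · exact ⟨(h1 v hv hv1).le, fun e => ((h1 v hv hv1).ne e).elim⟩

end Cfsg.Agent.TR
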