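import Cfsg.Agent.Lib.TR.FTc
import Cfsg.Agent.Lib.TR.Blich

/-! # Sylow subgroups for primitive prime divisors -/

set_option autoImplicit false
set_option linter.unusedSectionVars false

namespace Cfsg.Agent.TR

open Subgroup Cfsg.Agent.H6 Cfsg.Agent.FT
open scoped commutatorElement ComplexConjugate Classical

variable {X : Type*} [Group X] [Finite X] {p n r s : ℕ} {V G A D K L M N U Y : Subgroup X}
  {χ ψ ω l : X → ℂ} {g v x y z : X}

theorem lt_of_ord (hr : r.Prime) (hn : 0 < n) (ho : orderOf (p : ZMod r) = n) : n < r := by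
  have := Fact.mk hr
  have h1 := ZMod.orderOf_dvd_card_sub_one (a := (p : ZMod r)) fun e => by
    have := pow_orderOf_eq_one (p : ZMod r)
    rw [ho, e, zero_pow hn.ne'] at this
    exact zero_ne_one this
  have := hr.two_le
  have := Nat.le_of_dvd (by omega) (ho ▸ h1)
  omega

theorem St.ppd (h : St p n V G χ) (hG : ¬ Gam V G) (hn : 2 ≤ n) (hr : r.Prime)
    (ho : orderOf (p : ZMod r) = n) :
    ¬ r ^ 2 ∣ Nat.card G ∧ ∃ Y ≤ G, Nat.card Y = r ∧ ¬ NormalIn Y G := by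
  refine ⟨fun h2 => ?_, ?_⟩
  · obtain ⟨E, h3, h4, -⟩ := exists_between_of_pgroup hr (bot_le (a := G)) IsPGroup.of_bot
      (by rw [card_bot]; exact Nat.one_le_pow _ _ hr.pos) h2
    obtain ⟨z, rfl⟩ := cyclic_iff_zpowers.1 (h.cyclic h3 (card_p2group_abelian hr h4.dvd)
      (semiReg_of_prime fun Y h5 h6 => (h.semiReg_of_ord (h5.trans h3) hr
        ((Nat.prime_dvd_prime_iff_eq h6 hr).1 (h6.dvd_of_dvd_pow (h4 ▸ card_dvd_of_le h5))) ho).2.1))
    obtain ⟨N, h5, h6, h7⟩ := blichfeldt h.ch h.ker hr (h.dg ▸ lt_of_ord hr h.npos ho)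
      (h3 (mem_zpowers z)) (by rw [← Nat.card_zpowers, h4])
    exact h7 (h.eq_bot_of_ord hG hr ho h5 h6)
  · obtain ⟨Y, h1, h2⟩ := exists_card_eq_prime hr (Dvd.dvd.trans ((Nat.modEq_iff_dvd'
      (Nat.one_le_pow n p h.hp.pos)).1 (by
        rw [← ZMod.natCast_eq_natCast_iff, Nat.cast_pow, ← ho, pow_orderOf_eq_one, Nat.cast_one]))
      h.sub_one_dvd)
    exact ⟨Y, h1, h2, fun h3 => ne_bot_of_card_prime (h2 ▸ hr)
      (h.eq_bot_of_ord hG hr ho h3 (isPGroup_of_card_eq h2))⟩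

theorem St.ppd_le (h : St p n V G χ) (hG : ¬ Gam V G) (hn : 2 ≤ n) (hr : r.Prime)
    (ho : orderOf (p : ZMod r) = n) :
    r < 2 * n + 1 ∨ (r = 2 * n + 1 ∧ (Odd n ∨ n ∣ Nat.card G)) := by
  obtain ⟨h1, Y, h2, h3, h4⟩ := h.ppd hG hn hr ho
  obtain ⟨K, ψ, h5, h6, -, h7, h8, h9, h10⟩ := exists_nonlin h.ch h.ker hr h2 h3 h1 h4
  have h11 := lt_of_ord hr h.npos ho
  have h12 := card_spt_eq_deg (isChar_of_Irr h8) h5 (comm_of_cyclic (cyclic_of_card_prime
    (h3 ▸ hr))) fun l hl => (mult_le_of_const h.ch h6 h5 h8 h9 hl).trans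
      (h.mult_le_one_of_ord h2 hr h3 ho hl)
  have h13 := (deg_le_of_const h.ch h6 h8 h9).trans_eq h.dg
  rcases ftc hr (by omega) h3 h5 (fun e => h1 (e.trans (card_dvd_of_le h6))) h7 h8 h10 h12 with
    h14 | ⟨h14, h15⟩ | ⟨-, h14⟩
  · omega
  · rcases h13.eq_or_lt with e | e
    · exact Or.inr ⟨by omega, e ▸ h15.imp_right fun h => h.trans (card_dvd_of_le h6)⟩
    · omega
  · left
    by_contra h15
    nlinarith

theorem St.eighteen (h : St 3 18 V G χ) : Gam V G := by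
  by_contra hG
  have : Fact (Nat.Prime 37) := ⟨by norm_num⟩
  rcases h.ppd_le hG (by norm_num) this.out (by
    rw [orderOf_eq_iff (by norm_num)]; decide) with h1 | ⟨-, h1 | h1⟩
  · omega
  · exact absurd h1 (by decide)
  · exact h.cop (Dvd.dvd.trans (by norm_num) h1)

end Cfsg.Agent.TR
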