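import Cfsg.Agent.Lib.TR.Basic

/-! # Multiplicities of eigenvalues -/

set_option autoImplicit false
set_option linter.unusedSectionVars false

namespace Cfsg.Agent.TR

open Subgroup Cfsg.Agent.H6 Cfsg.Agent.FT
open scoped commutatorElement ComplexConjugate Classical

variable {X : Type*} [Group X] [Finite X] {p n r s : ℕ} {V G A D K L M N U Y : Subgroup X}
  {χ ψ ω l : X → ℂ} {g v x y z : X}

theorem mult_cast (h : IsChar L χ) (hY : Y ≤ L) (hl : l ∈ Irr Y) :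
    (mult χ Y l : ℂ) = ⟪χ, l⟫[Y] := by
  obtain ⟨k, hk⟩ := h.cfdot_of_le hY (isChar_of_Irr hl)
  simp [mult, hk]

theorem mem_spt : l ∈ spt χ Y ↔ l ∈ Irr Y ∧ mult χ Y l ≠ 0 := Finset.mem_filter

theorem mult_ne_zero (h : IsChar L χ) (hY : Y ≤ L) (hl : l ∈ Irr Y) :
    mult χ Y l ≠ 0 ↔ ⟪χ, l⟫[Y] ≠ 0 := by
  rw [← mult_cast h hY hl, Nat.cast_ne_zero]

theorem apply_eq_sum_mult (h : IsChar L χ) (hK : K ≤ L) (hx : x ∈ K) :
    χ x = ∑ ψ ∈ Irr K, (mult χ K ψ : ℂ) * ψ x := by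
  rw [← Res_of_mem (φ := χ) hx, CF_apply_eq_sum (h.res hK).mem_CF]
  exact Finset.sum_congr rfl fun ψ hψ => by rw [mult_cast h hK hψ, cfdot_Res_left]

theorem cfdot_eq_sum_mult (h : IsChar L χ) (hK : K ≤ L) (hY : Y ≤ K) (l : X → ℂ) :
    ⟪χ, l⟫[Y] = ∑ ψ ∈ Irr K, (mult χ K ψ : ℂ) * ⟪ψ, l⟫[Y] := by
  simp only [← cfdot_smul_left, ← cfdot_sum_left]
  exact cfdot_congr (fun x hx => by simp [apply_eq_sum_mult h hK (hY hx)]) fun _ _ => rfl

theorem mult_eq_sum (h : IsChar L χ) (hK : K ≤ L) (hY : Y ≤ K) (hl : l ∈ Irr Y) :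
    mult χ Y l = ∑ ψ ∈ Irr K, mult χ K ψ * mult ψ Y l := by
  refine Nat.cast_injective (R := ℂ) ?_
  rw [mult_cast h (hY.trans hK) hl, cfdot_eq_sum_mult h hK hY, Nat.cast_sum]
  exact Finset.sum_congr rfl fun ψ hψ => by rw [Nat.cast_mul, mult_cast (isChar_of_Irr hψ) hY hl]

theorem deg_eq_sum (h : IsChar L χ) (hK : K ≤ L) :
    deg χ = ∑ ψ ∈ Irr K, mult χ K ψ * deg ψ := by
  refine Nat.cast_injective (R := ℂ) ?_
  rw [h.deg_cast, apply_eq_sum_mult h hK K.one_mem, Nat.cast_sum]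
  exact Finset.sum_congr rfl fun ψ hψ => by rw [Nat.cast_mul, Irr_deg_cast hψ]

theorem deg_eq_sum_mult (h : IsChar L χ) (hY : Y ≤ L) (hc : IsMulCommutative Y) :
    deg χ = ∑ l ∈ Irr Y, mult χ Y l := by
  rw [deg_eq_sum h hY]
  exact Finset.sum_congr rfl fun l hl => by
    rw [(isLin_of_comm (fun _ ha _ hb => comm_mul hc ha hb) hl).deg_eq, mul_one]

theorem card_spt_le_deg (h : IsChar L χ) (hY : Y ≤ L) (hc : IsMulCommutative Y) :
    (spt χ Y).card ≤ deg χ := by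
  rw [deg_eq_sum_mult h hY hc, Finset.card_eq_sum_ones]
  exact (Finset.sum_le_sum fun l hl => Nat.one_le_iff_ne_zero.2 (mem_spt.1 hl).2).trans
    (Finset.sum_le_sum_of_subset (Finset.filter_subset _ _))

theorem card_spt_eq_deg (h : IsChar L χ) (hY : Y ≤ L) (hc : IsMulCommutative Y)
    (h1 : ∀ l ∈ Irr Y, mult χ Y l ≤ 1) : (spt χ Y).card = deg χ := by
  rw [deg_eq_sum_mult h hY hc, Finset.card_eq_sum_ones, spt, Finset.sum_filter]
  exact Finset.sum_congr rfl fun l hl => by have := h1 l hl; split_ifs <;> omega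

theorem mult_le_of_const (h : IsChar L χ) (hK : K ≤ L) (hY : Y ≤ K) (hψ : ψ ∈ Irr K)
    (h0 : ⟪χ, ψ⟫[K] ≠ 0) (hl : l ∈ Irr Y) : mult ψ Y l ≤ mult χ Y l := by
  rw [mult_eq_sum h hK hY hl]
  exact (Nat.le_mul_of_pos_left _ (Nat.pos_of_ne_zero ((mult_ne_zero h hK hψ).2 h0))).trans
    (Finset.single_le_sum (f := fun ψ => mult χ K ψ * mult ψ Y l) (fun _ _ => Nat.zero_le _) hψ)

theorem spt_subset_of_const (h : IsChar L χ) (hK : K ≤ L) (hY : Y ≤ K) (hψ : ψ ∈ Irr K)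
    (h0 : ⟪χ, ψ⟫[K] ≠ 0) : spt ψ Y ⊆ spt χ Y := by
  intro l hl
  have := mult_le_of_const h hK hY hψ h0 (mem_spt.1 hl).1
  exact mem_spt.2 ⟨(mem_spt.1 hl).1, by have := (mem_spt.1 hl).2; omega⟩

theorem deg_le_of_const (h : IsChar L χ) (hK : K ≤ L) (hψ : ψ ∈ Irr K) (h0 : ⟪χ, ψ⟫[K] ≠ 0) :
    deg ψ ≤ deg χ := by
  exact ((h.res hK).deg_le_of_const hψ (by simpa using h0)).trans_eq (deg_congr Res_one)

theorem Res_eq_of_const (h : IsChar L χ) (hK : K ≤ L) (hψ : ψ ∈ Irr K) (h0 : ⟪χ, ψ⟫[K] ≠ 0)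
    (hd : deg χ ≤ deg ψ) : Res K χ = ψ := by
  exact (h.res hK).eq_of_const_of_deg_le hψ (by simpa using h0)
    ((deg_congr Res_one).trans_le hd)

/-- A constituent on a group centralizing `Y` lives in one eigenspace of `Y`. -/
theorem deg_le_mult (h : IsChar L χ) (hK : K ≤ L) (hY : Y ≤ L) (hYc : IsMulCommutative Y)
    (hc : K ≤ 𝒞(Y)) (hψ : ψ ∈ Irr K) (h0 : ⟪χ, ψ⟫[K] ≠ 0) :
    ∃ l ∈ Irr Y, deg ψ ≤ mult χ Y l := by
  have hM : K ⊔ Y ≤ L := sup_le hK hY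
  obtain ⟨ω, hω, h1, h2⟩ := exists_Irr_between le_sup_left (h.inv.mono hM) h0
  have hZ : Y ≤ Zc (K ⊔ Y) := le_inf le_sup_right (cent_comm.1 (sup_le hc (comm_iff.1 hYc)))
  obtain ⟨l, hl, h3⟩ := (isChar_of_Irr hω).exists_Irr_under (Irr_ne_zero hω) le_sup_right
  have h4 := Res_eq_smul_of_inv (NormalIn.of_le_Zc hZ) hω hl (fun g hg x => by
    by_cases hx : x ∈ Y
    · rw [(hZ hx).2 g hg, mul_inv_cancel_right]
    · rw [Irr_supp hl x hx, Irr_supp hl _ (mt ((NormalIn.of_le_Zc hZ).conj_mem_iff hg).1 hx)]) h3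
  have h5 : deg ω = mult ω Y l := by
    have := congrFun h4 1
    rw [Res_one, Pi.smul_apply, (isLin_of_comm (fun _ ha _ hb => comm_mul hYc ha hb) hl).2,
      smul_eq_mul, mul_one, ← mult_cast (isChar_of_Irr hω) le_sup_right hl] at this
    exact deg_eq_of_apply_one this
  exact ⟨l, hl, (deg_le_of_const (isChar_of_Irr hω) le_sup_left hψ h2).trans
    (h5.trans_le (mult_le_of_const h hM le_sup_right hω h1 hl))⟩

theorem comm_of_lin (h : IsChar L χ) (hk : cfker L χ = ⊥) (hK : K ≤ L)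
    (h1 : ∀ ψ ∈ Irr K, ⟪χ, ψ⟫[K] ≠ 0 → deg ψ = 1) : IsMulCommutative K := by
  have h2 := (h.res hK).le_cfker_of_forall_const (der_le K) fun ψ hψ h0 =>
    (isLin_of_deg (isChar_of_Irr hψ) (h1 ψ hψ (by simpa using h0))).der_le_cfker
  rw [h.cfker_Res hK, hk, inf_bot_eq, le_bot_iff] at h2
  exact comm_iff_der.2 h2

theorem comm_of_mult_le_one (h : IsChar L χ) (hk : cfker L χ = ⊥) (hK : K ≤ L) (hY : Y ≤ L)
    (hYc : IsMulCommutative Y) (hc : K ≤ 𝒞(Y)) (h1 : ∀ l ∈ Irr Y, mult χ Y l ≤ 1) :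
    IsMulCommutative K := by
  refine comm_of_lin h hk hK fun ψ hψ h0 => ?_
  obtain ⟨l, hl, h2⟩ := deg_le_mult h hK hY hYc hc hψ h0
  exact le_antisymm (h2.trans (h1 l hl)) (Irr_deg_pos hψ)

theorem St.mult_cf1 (h : St p n V G χ) (hY : Y ≤ G) :
    Nat.card (V ⊓ 𝒞(Y) : Subgroup X) = p ^ mult χ Y (cf1 Y) := by
  obtain ⟨d, h1, h2⟩ := h.fx Y hY
  rw [← mult_cast h.ch hY (cf1_mem_Irr Y), Nat.cast_inj] at h2
  rw [h1, h2]

theorem St.sum_mult (h : St p n V G χ) (hY : Y ≤ G) (hc : IsMulCommutative Y) :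
    ∑ l ∈ Irr Y, mult χ Y l = n := by
  rw [← deg_eq_sum_mult h.ch hY hc, h.dg]

theorem St.orbit (h : St p n V G χ) (hY : Y ≤ G) (hs : s.Prime) (hc : Nat.card Y = s)
    (hl : l ∈ Irr Y) (h1 : l ≠ cf1 Y) : ∃ O ⊆ (Irr Y).erase (cf1 Y),
      O.card = orderOf (p : ZMod s) ∧ ∀ μ ∈ O, mult χ Y μ = mult χ Y l := by
  have hcm : IsMulCommutative Y := comm_of_cyclic (cyclic_of_card_prime (hc ▸ hs))
  have hL := isLin_of_comm (fun _ ha _ hb => comm_mul hcm ha hb) hl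
  obtain ⟨y, hy, hy1⟩ : ∃ y ∈ Y, l y ≠ 1 := by
    by_contra h'
    push Not at h'
    exact h1 ((Irr_eq_cf1_iff hl).1 fun y hy => hL.mem_cfker.2 ⟨hy, h' y hy⟩)
  have := Fact.mk hs
  have ho : orderOf (l y) = s := orderOf_eq_prime (by
    rw [← hL.map_pow hy, ← hc, show y ^ Nat.card Y = 1 from
      congrArg Subtype.val (pow_card_eq_one' (x := (⟨y, hy⟩ : Y))), hL.2]) hy1
  have hcop : (Nat.card Y).Coprime p := ((h.hp.coprime_iff_not_dvd.2 h.cop).symm.coprime_dvd_left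
    (card_dvd_of_le hY))
  have hfin : IsOfFinOrder (l y) := orderOf_pos_iff.1 (ho ▸ hs.pos)
  refine ⟨(Finset.range (orderOf (p : ZMod s))).image fun i => Res Y (l ^ p ^ i),
    fun μ hμ => ?_, ?_, fun μ hμ => ?_⟩
  · obtain ⟨i, -, rfl⟩ := Finset.mem_image.1 hμ
    refine Finset.mem_erase.2 ⟨fun e => ?_, (hL.pow _).mem_Irr⟩
    have h2 := congrFun e y
    rw [Res_of_mem hy, cf1_of_mem hy, Pi.pow_apply, ← orderOf_dvd_iff_pow_eq_one, ho] at h2
    exact hs.one_lt.ne' (Nat.Coprime.eq_one_of_dvd (hc ▸ hcop.pow_right i) h2)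
  · rw [Finset.card_image_of_injOn, Finset.card_range]
    intro i hi j hj e
    have h2 := congrFun e y
    simp only [Res_of_mem hy, Pi.pow_apply] at h2
    rw [hfin.pow_eq_pow_iff_modEq, ho, ← ZMod.natCast_eq_natCast_iff, Nat.cast_pow,
      Nat.cast_pow] at h2
    exact pow_injOn_Iio_orderOf (by simpa using hi) (by simpa using hj) h2
  · obtain ⟨i, -, rfl⟩ := Finset.mem_image.1 hμ
    have hg : ∀ i, ∀ x ∈ G, χ (x ^ p ^ i) = χ x := fun i x hx => by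
      induction i with
      | zero => simp
      | succ i ih => rw [pow_succ, pow_mul, h.gal _ (G.pow_mem hx _), ih]
    have := Fintype.ofFinite Y
    rw [mult, mult, cfdot_Res_right, cfdot, cfdot, sum_fs_subgroup, sum_fs_subgroup,
      ← (hcop.pow_right i).pow_left_bijective.sum_comp fun x : Y => χ x * conj (l x)]
    simp only [coe_pow, hg i _ (hY (Subtype.prop _)), hL.map_pow (Subtype.prop _), Pi.pow_apply]

theorem St.mult_le (h : St p n V G χ) (hY : Y ≤ G) (hs : s.Prime) (hc : Nat.card Y = s)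
    (hl : l ∈ Irr Y) (h1 : l ≠ cf1 Y) :
    orderOf (p : ZMod s) * mult χ Y l + mult χ Y (cf1 Y) ≤ n := by
  obtain ⟨O, h2, h3, h4⟩ := h.orbit hY hs hc hl h1
  rw [← h.sum_mult hY (comm_of_cyclic (cyclic_of_card_prime (hc ▸ hs))),
    ← Finset.sum_erase_add _ _ (cf1_mem_Irr Y), ← h3, ← smul_eq_mul, ← Finset.sum_const,
    ← Finset.sum_congr rfl h4]
  exact Nat.add_le_add_right (Finset.sum_le_sum_of_subset h2) _

theorem St.mult_cf1_lt (h : St p n V G χ) (hY : Y ≤ G) (h1 : Y ≠ ⊥) : mult χ Y (cf1 Y) < n := by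
  by_contra h2
  have h3 : V ⊓ 𝒞(Y) = V := eq_of_le_of_card_le inf_le_left (by
    rw [h.mult_cf1 hY, h.cardV]; exact Nat.pow_le_pow_right h.hp.pos (not_lt.1 h2))
  exact h1 (le_bot_iff.1 (h.ff ▸ le_inf hY (cent_comm.1 (h3 ▸ inf_le_right))))

theorem St.mult_le_one_of_ord (h : St p n V G χ) (hY : Y ≤ G) (hr : r.Prime)
    (hc : Nat.card Y = r) (ho : orderOf (p : ZMod r) = n) (hl : l ∈ Irr Y) : mult χ Y l ≤ 1 := by
  by_cases h1 : l = cf1 Y
  · have h2 := h.mult_cf1 hY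
    rw [(h.semiReg_of_ord hY hr hc ho).2.1, card_bot, eq_comm, Nat.pow_eq_one] at h2
    have := h.hp.one_lt
    rw [h1]; omega
  · have h2 := h.mult_le hY hr hc hl h1
    rw [ho] at h2
    exact Nat.le_of_mul_le_mul_left (by omega) h.npos

/-- What centralizes an absolutely irreducible subgroup is a scalar from the prime field. -/
theorem St.scalar (h : St p n V G χ) (hK : K ≤ G) (hi : Res K χ ∈ Irr K) (hz : z ∈ G)
    (hc : z ∈ 𝒞(K)) : z ^ (p - 1) = 1 ∧ z ∈ 𝒞(G) := by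
  have hM : K ⊔ zpowers z ≤ G := sup_le hK (zpowers_le.2 hz)
  have h1 : Res (K ⊔ zpowers z) χ ∈ Irr (K ⊔ zpowers z) :=
    Irr_of_Res_Irr (h.ch.res hM) le_sup_left (by rwa [Res_Res le_sup_left])
  have hz' : z ∈ K ⊔ zpowers z := mem_sup_right (mem_zpowers z)
  obtain ⟨c, hc1, hc2⟩ := Irr_exists_scalar h1 (z := z) ⟨hz', by
    rw [cent_sup, cent_zpowers]; exact ⟨hc, mem_cent1.2 rfl⟩⟩
  have h2 := hc2 1 (one_mem _)
  rw [mul_one, Res_of_mem hz', Res_one] at h2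
  obtain ⟨c, hc1, hc2⟩ := H3.IsCharacter_mul_of_norm_eq h.ch.2 (z := ⟨z, hz⟩) (by
    simp [h2, hc1])
  replace hc2 : ∀ g ∈ G, χ (z * g) = c * χ g := fun g hg => hc2 ⟨g, hg⟩
  have h3 : ∀ k, χ (z ^ k) = c ^ k * χ 1 := fun k => by
    induction k with
    | zero => simp
    | succ k ih => rw [pow_succ', hc2 _ (G.pow_mem hz k), ih, pow_succ', mul_assoc]
  have h0 : χ 1 ≠ 0 := by rw [← h.ch.deg_cast, h.dg]; exact Nat.cast_ne_zero.2 h.npos.ne'
  have h4 := h.gal z hz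
  rw [h3, ← pow_one z, h3, mul_left_inj' h0, ← Nat.sub_add_cancel h.hp.pos, pow_succ, pow_one,
    mul_eq_right₀ (by rintro rfl; simp at hc1)] at h4
  have hk : ∀ x ∈ G, χ x = χ 1 → x = 1 := fun x hx e =>
    mem_bot.1 (h.ker ▸ h.ch.mem_cfker.2 ⟨hx, e⟩)
  refine ⟨hk _ (G.pow_mem hz _) (by rw [h3, h4, one_mul]), fun g hg => ?_⟩
  have hg' := G.mul_mem (G.mul_mem hg (G.inv_mem hz)) (G.inv_mem hg)
  have h5 := hk _ (G.mul_mem hz hg') (by
    rw [hc2 _ hg', h.ch.inv g hg, ← hc2 _ (G.inv_mem hz), mul_inv_cancel])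
  calc g * z = z * (g * z⁻¹ * g⁻¹) * (g * z) := by rw [h5, one_mul]
    _ = z * g := by group

/-- If a Sylow subgroup of prime order is not normal, its normal closure has a nonlinear
constituent. -/
theorem exists_nonlin (h : IsChar L χ) (hk : cfker L χ = ⊥) (hr : r.Prime) (hY : Y ≤ L)
    (hc : Nat.card Y = r) (hs : ¬ r ^ 2 ∣ Nat.card L) (hn : ¬ NormalIn Y L) :
    ∃ K ψ, Y ≤ K ∧ K ≤ L ∧ (∀ N, NormalIn N L → Y ≤ N → K ≤ N) ∧
      (∀ N, NormalIn N K → Y ≤ N → N = K) ∧ ψ ∈ Irr K ∧ ⟪χ, ψ⟫[K] ≠ 0 ∧ deg ψ ≠ 1 := by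
  have := Fact.mk hr
  let K := closure {x | ∃ g ∈ L, ∃ y ∈ Y, x = g * y * g⁻¹}
  have hYK : Y ≤ K := fun y hy => subset_closure ⟨1, L.one_mem, y, hy, by simp⟩
  have hmin : ∀ N, NormalIn N L → Y ≤ N → K ≤ N := fun N hN h1 => (closure_le _).2 (by
    rintro _ ⟨g, hg, y, hy, rfl⟩; exact hN.conj_mem hg (h1 hy))
  have hKL := hmin L (.refl L) hY
  have hK : NormalIn K L := .of_conj_mem hKL fun g hg x hx => by
    induction hx using closure_induction with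
    | mem x hx =>
      obtain ⟨a, ha, y, hy, rfl⟩ := hx
      exact subset_closure ⟨g * a, L.mul_mem hg ha, y, hy, by group⟩
    | one => simp
    | mul x y _ _ hx hy => convert K.mul_mem hx hy using 1; group
    | inv x _ hx => convert K.inv_mem hx using 1; group
  have hS : Syl r Y K := ⟨hYK, .of_card (n := 1) (by rw [hc, pow_one]), fun h => hs (by
    refine Dvd.dvd.trans ?_ (card_dvd_of_le hKL)
    rw [← relIndex_mul_card' hYK, hc, sq]; exact Nat.mul_dvd_mul_right h r)⟩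
  by_contra h'
  have hc : IsMulCommutative K := comm_of_lin h hk hKL fun ψ hψ h0 => by
    by_contra h1
    refine h' ⟨K, ψ, hYK, hKL, hmin, fun N hN h1 => le_antisymm hN.le ((closure_le _).2 ?_),
      hψ, h0, h1⟩
    rintro _ ⟨g, hg, y, hy, rfl⟩
    obtain ⟨k, hk, e⟩ := hS.exists_cj_eq (hS.cj_of_mem (hK.norm hg))
    exact (hN.cj_eq hk).le (cj_mono k h1 (e.ge (conj_mem_cj hy)))
  exact hn (NormalIn.of_char hK.norm hKL hYK (((hall_singleton hr).2 hS).norm_le_of_normal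
    ((cent_comm.1 (hYK.trans (comm_iff.1 hc))).trans cent_le_norm)))

end Cfsg.Agent.TR
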